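import Mathlib
import Cfsg.Agent.KSG.SimCount
import Cfsg.Agent.Class.GLStab

/-! Groups which are the union of the conjugates of two proper subgroups: general lemmas and the
linear groups of dimension at most four. -/

set_option autoImplicit false

namespace Cfsg.Agent.Class.Cover

open Polynomial Matrix Cfsg.Agent.KSG

/-- `G` is the union of the conjugates of two proper subgroups. -/
def Cov (G : Type*) [Group G] : Prop :=
  ∃ H K : Subgroup G, H ≠ ⊤ ∧ K ≠ ⊤ ∧ ∀ g : G, ∃ x : G, x * g * x⁻¹ ∈ H ∨ x * g * x⁻¹ ∈ K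

/-- `P` defines a proper subgroup of `Γ` supplementing the image of `φ` and containing `φ N`. -/
structure Good {G Γ : Type*} [Group G] [Group Γ] (φ : G →* Γ) (N : Subgroup G) (P : Γ → Prop) :
    Prop where
  one : P 1
  mul : ∀ a b, P a → P b → P (a * b)
  ne : ∃ x, ¬ P x
  sup : ∀ x, ∃ h, P h ∧ h * x ∈ φ.range
  cen : ∀ z ∈ N, P (φ z)

section General

variable {G Γ : Type*} [Group G] [Group Γ] [Finite Γ] {φ : G →* Γ} {N : Subgroup G}
  {P Q : Γ → Prop}

theorem Good.inv (h : Good φ N P) {a : Γ} (ha : P a) : P a⁻¹ := by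
  have h1 : ∀ n : ℕ, P (a ^ n) := fun n => by
    induction n with
    | zero => simpa using h.one
    | succ n ih => rw [pow_succ]; exact h.mul _ _ ih ha
  have h2 : a⁻¹ = a ^ (orderOf a - 1) := by
    rw [inv_eq_iff_mul_eq_one, ← pow_succ', Nat.sub_add_cancel (orderOf_pos a), pow_orderOf_eq_one]
  exact h2 ▸ h1 _

/-- The subgroup of `G` defined by a good predicate. -/
def Good.sub (h : Good φ N P) : Subgroup G where
  carrier := {g | P (φ g)}
  one_mem' := by simpa using h.one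
  mul_mem' := fun ha hb => by simpa using h.mul _ _ ha hb
  inv_mem' := fun ha => by simpa using h.inv ha

theorem Good.map_ne [N.Normal] (h : Good φ N P) : h.sub.map (QuotientGroup.mk' N) ≠ ⊤ := by
  intro e
  obtain ⟨x, hx⟩ := h.ne
  obtain ⟨a, ha, y, hy⟩ := h.sup x
  obtain ⟨z, hz, e1⟩ : QuotientGroup.mk' N y ∈ h.sub.map (QuotientGroup.mk' N) := e ▸ trivial
  have h1 : P (φ (z * (z⁻¹ * y))) := by
    rw [map_mul]; exact h.mul _ _ hz (h.cen _ (QuotientGroup.eq.1 e1))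
  rw [mul_inv_cancel_left, hy] at h1
  exact hx (by simpa using h.mul _ _ (h.inv ha) h1)

theorem Good.conj (h : Good φ N P) {g : G} {x : Γ} (hx : P (x * φ g * x⁻¹)) :
    ∃ y, y * g * y⁻¹ ∈ h.sub := by
  obtain ⟨a, ha, y, hy⟩ := h.sup x
  refine ⟨y, ?_⟩
  change P (φ _)
  rw [map_mul, map_mul, map_inv, hy]
  simpa [mul_assoc] using h.mul _ _ (h.mul _ _ ha hx) (h.inv ha)

theorem cov_of [N.Normal] (hP : Good φ N P) (hQ : Good φ N Q)
    (h : ∀ g : G, ∃ x : Γ, P (x * φ g * x⁻¹) ∨ Q (x * φ g * x⁻¹)) : Cov (G ⧸ N) := by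
  refine ⟨_, _, hP.map_ne, hQ.map_ne, fun g => ?_⟩
  obtain ⟨g, rfl⟩ := QuotientGroup.mk'_surjective N g
  obtain ⟨x, hx | hx⟩ := h g
  · obtain ⟨y, hy⟩ := hP.conj hx
    exact ⟨QuotientGroup.mk' N y, .inl ⟨_, hy, by simp⟩⟩
  · obtain ⟨y, hy⟩ := hQ.conj hx
    exact ⟨QuotientGroup.mk' N y, .inr ⟨_, hy, by simp⟩⟩

end General

variable {F : Type*} [Field F] [Finite F]

theorem exists_irreducible {d : ℕ} (hd : d ≠ 0) :
    ∃ f : F[X], Irreducible f ∧ f.Monic ∧ f.natDegree = d := by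
  obtain ⟨p, hp⟩ := CharP.exists F
  have : Fact p.Prime := ⟨CharP.char_is_prime F p⟩
  have : NeZero d := ⟨hd⟩
  let b := Field.powerBasisOfFiniteOfSeparable F (FiniteField.Extension F p d)
  exact ⟨minpoly F b.gen, minpoly.irreducible b.isIntegral_gen, minpoly.monic b.isIntegral_gen, by
    rw [b.natDegree_minpoly, ← b.finrank, FiniteField.finrank_extension]⟩

theorem aeval_pow_card {A : Type*} [CommRing A] [Algebra F A] (y : A) (f : F[X]) (k : ℕ) :
    aeval (y ^ Nat.card F ^ k) f = aeval y f ^ Nat.card F ^ k := by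
  have := Fintype.ofFinite F
  induction k with
  | zero => simp
  | succ k ih =>
    rw [pow_succ, pow_mul, pow_mul, ← ih, Nat.card_eq_fintype_card]
    exact aeval_algHom_apply (FiniteField.frobeniusAlgHom F A) _ f

/-- An irreducible `f` has a root in `F[X]/(p ^ e)` if `deg f ∣ deg p`. -/
theorem exists_root {f p : F[X]} (hf : Irreducible f) (hp : Irreducible p)
    (h : f.natDegree ∣ p.natDegree) (e : ℕ) : ∃ y : AdjoinRoot (p ^ e), aeval y f = 0 := by
  have := Fact.mk hf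
  have := Fact.mk hp
  have := (AdjoinRoot.powerBasis hf.ne_zero).finite
  have := (AdjoinRoot.powerBasis hp.ne_zero).finite
  have : Finite (AdjoinRoot p) := Module.finite_of_finite F
  obtain ⟨ψ⟩ := FiniteField.nonempty_algHom_of_finrank_dvd (F := F) (K := AdjoinRoot f)
    (L := AdjoinRoot p) (by rwa [finrank_adjoinRoot, finrank_adjoinRoot])
  obtain ⟨a, ha⟩ := AdjoinRoot.mk_surjective (ψ (AdjoinRoot.root f))
  have h1 : p ∣ f.comp a := by
    rw [← AdjoinRoot.mk_eq_zero, ← AdjoinRoot.aeval_eq, aeval_comp, AdjoinRoot.aeval_eq, ha,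
      aeval_algHom_apply, AdjoinRoot.aeval_eq, AdjoinRoot.mk_self, map_zero]
  refine ⟨AdjoinRoot.mk _ a ^ Nat.card F ^ e, ?_⟩
  rw [aeval_pow_card, ← AdjoinRoot.aeval_eq, ← aeval_comp, AdjoinRoot.aeval_eq, ← map_pow,
    AdjoinRoot.mk_eq_zero]
  exact (pow_dvd_pow p (Nat.lt_pow_self Finite.one_lt_card).le).trans (pow_dvd_pow_of_dvd h1 _)

variable {ι : Type} [Fintype ι] [DecidableEq ι]

theorem exists_commute_root {A : Matrix ι ι F} {f : F[X]} (hf : Irreducible f)
    (h : ∀ (p : F[X]) (e : ℕ), Irreducible p → p.Monic → 0 < e → p ^ e ∈ mdiv A →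
      f.natDegree ∣ p.natDegree) : ∃ M : Matrix ι ι F, M * A = A * M ∧ aeval M f = 0 := by
  classical
  obtain ⟨k, c, hc, ⟨e, he⟩, h1⟩ := exists_sim_cycEnd_elemDiv (Matrix.toLin' A)
  have h2 : ∀ i, ∃ y : AdjoinRoot (c i), aeval y f = 0 := fun i => by
    obtain ⟨p, j, p1, p2, p3, p4⟩ := hc i
    rw [p4]
    exact exists_root hf p1 (h p j p1 p2 p3 (by rw [mdiv, h1, ← p4]; simp)) j
  choose y hy using h2
  refine ⟨LinearMap.toMatrix' (e.symm.conj (cycMul c y)), ?_, ?_⟩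
  · apply Matrix.toLin'.injective
    simp only [Matrix.toLin'_mul, Matrix.toLin'_toMatrix']
    refine LinearMap.ext fun v => e.injective ?_
    simp only [LinearMap.comp_apply, LinearEquiv.conj_apply, LinearEquiv.coe_coe,
      LinearEquiv.symm_symm, LinearEquiv.apply_symm_apply, he]
    exact LinearMap.congr_fun (cycMul_commute c y).eq (e v)
  · apply Matrix.toLin'.injective
    rw [toLin'_aeval, Matrix.toLin'_toMatrix', map_zero]
    have h3 : Sim (e.symm.conj (cycMul c y)) (cycMul c y) :=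
      ⟨e, fun v => by simp [LinearEquiv.conj_apply]⟩
    rw [h3.aeval_eq_zero_iff, aeval_algHom_apply]
    have : aeval (y : Cyc c) f = 0 := funext fun i =>
      (aeval_algHom_apply (Pi.evalAlgHom F (fun i => AdjoinRoot (c i)) i) y f).symm.trans (hy i)
    rw [this, map_zero]

omit [Finite F] in
theorem mdiv_of_root {M : Matrix ι ι F} {f : F[X]} (hf : Irreducible f) (hm : f.Monic)
    (h : aeval M f = 0) : mdiv M = Multiset.replicate (Fintype.card ι / f.natDegree) f := by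
  have h1 : ∀ b ∈ mdiv M, b = f := fun b hb => by
    obtain ⟨e, h2, h3, rfl⟩ := (isPP_of_mem_mdiv hb).eq_pow_of_dvd_pow hf hm (k := 1)
      (by simpa using (aeval_eq_zero_iff_mdiv M f).1 h b hb)
    rw [show e = 1 by omega, pow_one]
  have h2 := Multiset.eq_replicate_card.2 h1
  have h3 := sum_natDegree_mdiv M
  rw [h2] at h3 ⊢
  simp only [Multiset.map_replicate, Multiset.sum_replicate, smul_eq_mul] at h3 ⊢
  rw [← h3, Nat.mul_div_cancel _ hf.natDegree_pos]

omit [Finite F] in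
theorem exists_eigen_or (A : Matrix ι ι F) : (∃ v c, v ≠ 0 ∧ A *ᵥ v = (c : F) • v) ∨
    ∀ b ∈ mdiv A, ∀ p : F[X], Irreducible p → p ∣ b → 2 ≤ p.natDegree := by
  by_contra! h
  obtain ⟨h1, b, hb, p, p1, p2, p3⟩ := h
  have h2 := p1.natDegree_pos
  obtain ⟨c, hc⟩ := exists_root_of_degree_eq_one
    ((degree_eq_iff_natDegree_eq_of_pos one_pos).2 (show p.natDegree = 1 by omega))
  have h3 : ¬ IsUnit (aeval A (X - C c)) := fun h => (irreducible_X_sub_C c).not_isUnit
    (((isUnit_aeval_iff_mdiv A _).1 h b hb).isUnit_of_dvd ((dvd_iff_isRoot.2 hc).trans p2))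
  rw [Matrix.isUnit_iff_isUnit_det, isUnit_iff_ne_zero, not_not,
    ← Matrix.exists_mulVec_eq_zero_iff] at h3
  obtain ⟨v, hv, h4⟩ := h3
  refine h1 v c hv ?_
  simpa [sub_mulVec, Algebra.algebraMap_eq_smul_one, smul_mulVec, sub_eq_zero] using h4

theorem cov_PSL {n d : ℕ} (hd : 2 ≤ d) (hdn : d ∣ n) (hn : n ≠ 0)
    (h : ∀ k e r, 2 ≤ k → 0 < e → r ≠ 1 → e * k + r = n → d ∣ k) :
    Cov (ProjectiveSpecialLinearGroup (Fin n) F) := by
  have hn2 := hd.trans (Nat.le_of_dvd (by omega) hdn)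
  have : Nontrivial (Fin n) := Fin.nontrivial_iff_two_le.2 hn2
  obtain ⟨f, f1, f2, rfl⟩ := exists_irreducible (F := F) (d := d) (by omega)
  have hX : ¬ X ∣ f := fun e => by
    have := natDegree_eq_of_degree_eq (degree_eq_degree_of_associated
      (irreducible_X.associated_of_dvd f1 e))
    rw [natDegree_X] at this; omega
  obtain ⟨S, hS⟩ := exists_GL_mdiv_eq (n := Fin n) (s := Multiset.replicate (n / f.natDegree) f)
    (fun b hb => Multiset.eq_of_mem_replicate hb ▸ IsPP.of_irreducible f1 f2)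
    (fun b hb => Multiset.eq_of_mem_replicate hb ▸ hX) (by simp [Nat.div_mul_cancel hdn])
  have hf : f ∈ mdiv S.1 := by
    rw [hS, Multiset.mem_replicate]
    exact ⟨(Nat.div_pos (Nat.le_of_dvd (by omega) hdn) (by omega)).ne', rfl⟩
  obtain ⟨i, j, hij⟩ := exists_pair_ne (Fin n)
  let u : Fin n → F := Pi.single i 1
  have hu : u ≠ 0 := by simp [u]
  have hz : ∀ z ∈ Subgroup.center (SpecialLinearGroup (Fin n) F), ∃ c : F,
      (SpecialLinearGroup.toGL z).1 = c • 1 := fun z hz => by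
    obtain ⟨c, -, hc⟩ := Matrix.SpecialLinearGroup.mem_center_iff.1 hz
    exact ⟨c, hc.symm.trans (by rw [scalar_apply, smul_one_eq_diagonal])⟩
  have hdet : ∀ x : GL (Fin n) F, x.1.det ≠ 0 := fun x =>
    ((Matrix.isUnit_iff_isUnit_det _).1 x.isUnit).ne_zero
  have hr : ∀ a x : GL (Fin n) F, a.1.det = x.1.det⁻¹ →
      a * x ∈ (SpecialLinearGroup.toGL (n := Fin n) (R := F)).range := fun a x e => by
    rw [range_toGL_eq_ker_det, MonoidHom.mem_ker, Units.ext_iff]
    simp [e, hdet x]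
  refine cov_of (φ := SpecialLinearGroup.toGL) (P := fun g => ∃ c : F, g.1 *ᵥ u = c • u)
    (Q := fun g => g.1 * S.1 = S.1 * g.1) ⟨⟨1, by simp⟩, ?_, ?_, fun x => ?_, fun z h => ?_⟩
    ⟨by simp, fun a b ha hb => ?_, ?_, fun x => ?_, fun z h => ?_⟩ fun g => ?_
  · rintro a b ⟨c, hc⟩ ⟨c', hc'⟩
    exact ⟨c' * c, by rw [Units.val_mul, ← mulVec_mulVec, hc', mulVec_smul, hc, mul_smul]⟩
  · obtain ⟨g, -, hg⟩ := GLStab.exists_det_eq_mulVec_eq hu (u' := Pi.single j 1) (by simp) one_ne_zero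
    refine ⟨g, fun ⟨c, hc⟩ => ?_⟩
    have := congrFun (hg.symm.trans hc) j
    simp [u, hij.symm] at this
  · obtain ⟨g, h1, h2⟩ := GLStab.exists_det_eq_mulVec_eq hu hu (inv_ne_zero (hdet x))
    exact ⟨g, ⟨1, by simpa⟩, hr _ _ h1⟩
  · obtain ⟨c, hc⟩ := hz z h
    exact ⟨c, by rw [hc, smul_mulVec, one_mulVec]⟩
  · rw [Units.val_mul, mul_assoc, hb, ← mul_assoc, ha, mul_assoc]
  · by_contra! h1
    obtain ⟨c, hc⟩ := Matrix.mem_range_scalar_of_commute_transvectionStruct (M := S.1) fun t =>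
      h1 (GeneralLinearGroup.mkOfDetNeZero t.toMatrix (by simp))
    have h2 := (aeval_eq_zero_iff_mdiv S.1 (X - C c)).1 (by
      simp [← hc, Algebra.algebraMap_eq_smul_one, smul_one_eq_diagonal]) f hf
    have := natDegree_le_of_dvd h2 (X_sub_C_ne_zero c)
    rw [natDegree_X_sub_C] at this; omega
  · obtain ⟨c, h1, h2⟩ := exists_commute_det_eq_of_irreducible_mem hf f1 _ (inv_ne_zero (hdet x))
    exact ⟨c, h1, hr _ _ h2⟩
  · obtain ⟨c, hc⟩ := hz z h
    simp [hc]
  rcases exists_eigen_or (SpecialLinearGroup.toGL g).1 with ⟨v, c, hv, h1⟩ | h1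
  · obtain ⟨x, -, hx⟩ := GLStab.exists_det_eq_mulVec_eq hv hu one_ne_zero
    refine ⟨x, .inl ⟨c, ?_⟩⟩
    rw [← hx, mulVec_mulVec, ← Units.val_mul, inv_mul_cancel_right, Units.val_mul, ← mulVec_mulVec,
      h1, mulVec_smul]
  obtain ⟨M, h2, h3⟩ := exists_commute_root (A := (SpecialLinearGroup.toGL g).1) f1
    fun p e p1 p2 p3 p4 => by
      obtain ⟨t, ht⟩ := Multiset.exists_cons_of_mem p4
      have h4 := sum_natDegree_mdiv (SpecialLinearGroup.toGL g).1
      rw [ht, Multiset.map_cons, Multiset.sum_cons, natDegree_pow, Fintype.card_fin] at h4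
      refine h _ e _ (h1 _ p4 p p1 (dvd_pow_self p p3.ne')) p3 (fun h5 => ?_) h4
      obtain ⟨b, hb⟩ := Multiset.exists_mem_of_ne_zero (s := t) (by rintro rfl; simp at h5)
      have h6 : b ∈ mdiv (SpecialLinearGroup.toGL g).1 := ht ▸ Multiset.mem_cons_of_mem hb
      obtain ⟨p', e', q1, q2, q3, rfl⟩ := isPP_of_mem_mdiv h6
      have h7 := h1 _ h6 p' q1 (dvd_pow_self p' q3.ne')
      have h8 := Multiset.single_le_sum (fun _ _ => Nat.zero_le _) _
        (Multiset.mem_map_of_mem natDegree hb)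
      rw [natDegree_pow, h5] at h8
      nlinarith
  obtain ⟨x, hx⟩ : IsConj M S.1 := isConj_iff_mdiv.2 (by
    rw [hS, mdiv_of_root f1 f2 h3, Fintype.card_fin])
  refine ⟨x, .inr ?_⟩
  have h4 : S.1 = x * M * (x⁻¹ : GL (Fin n) F) := by rw [hx.eq, Units.mul_inv_cancel_right]
  rw [h4]
  simp only [Units.val_mul, mul_assoc, Units.inv_mul_cancel_left]
  rw [← mul_assoc M, h2, mul_assoc]

theorem cov_PSL2 : Cov (ProjectiveSpecialLinearGroup (Fin 2) F) :=
  cov_PSL le_rfl dvd_rfl two_ne_zero fun k e r h1 h2 h3 h4 => by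
    rw [show k = 2 by nlinarith]

theorem cov_PSL3 : Cov (ProjectiveSpecialLinearGroup (Fin 3) F) :=
  cov_PSL (d := 3) (by norm_num) dvd_rfl three_ne_zero fun k e r h1 h2 h3 h4 => by
    have : k ≤ 3 := by nlinarith
    interval_cases k <;> omega

theorem cov_PSL4 : Cov (ProjectiveSpecialLinearGroup (Fin 4) F) :=
  cov_PSL (d := 2) le_rfl (by norm_num) four_ne_zero fun k e r h1 h2 h3 h4 => by
    have : k ≤ 4 := by nlinarith
    interval_cases k <;> omega

end Cfsg.Agent.Class.Cover
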