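import Cfsg.Agent.Class.Cover.Basic
import Cfsg.Agent.Class.Char2.Main

/-! Dye's theorem: `Sp_{2m}(q)`, `q` even, is covered by the conjugates of `O^+` and `O^-`. -/

set_option autoImplicit false

namespace Cfsg.Agent.Class.Cover

open Cfsg.Agent.Class.Wall Cfsg.Agent.Class.Char2 Module

theorem exists_two_reps {α : Type*} (S P : α → Prop) (h : ∃ a, S a) :
    ∃ a b, S a ∧ S b ∧ ∀ c, S c → ((P c ↔ P a) ∨ (P c ↔ P b)) := by
  obtain ⟨a, ha⟩ := h
  by_cases h1 : ∃ b, S b ∧ ¬ (P b ↔ P a)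
  · obtain ⟨b, hb, h2⟩ := h1
    exact ⟨a, b, ha, hb, fun c _ => by tauto⟩
  · exact ⟨a, a, ha, ha, fun c hc => .inl (by_contra fun h2 => h1 ⟨c, hc, h2⟩)⟩

variable {F : Type*} [Field F] [Finite F]

theorem cov_PSp_even (h2 : (2 : F) = 0) {m : ℕ} (hm : 2 ≤ m) : Cov (PSp m F) := by
  have h0 : OF (sympB m F) (Orth.plusQF m F) := by
    convert isFormed_of_quadratic _ ((Orth.nd_iff _).1 (Orth.nd_plusQF m F))
    refine LinearMap.ext₂ fun x y => ?_
    rw [sympB_apply, Sp.form_eq, QuadraticMap.polarBilin_apply_apply, Orth.polar_plusQF]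
    exact Finset.sum_congr rfl fun i _ => by linear_combination -x (.inl i) * y (.inr i) * h2
  obtain ⟨Q₁, Q₂, h1, h1', h3⟩ := exists_two_reps (OF (sympB m F)) (Plus F) ⟨_, h0⟩
  have hT : ∀ Q, OF (sympB m F) Q → IsOS (sympB m F) Q := fun Q h =>
    { h.herm with
      add := h.add, smul := h.smul
      self := fun x => ⟨Q x, rfl, by simpa [Sp.form_self] using by linear_combination -Q x * h2⟩ }
  have hG : ∀ Q, OF (sympB m F) Q → Good (MonoidHom.id _) (Subgroup.center _)
      fun g : Matrix.symplecticGroup (Fin m) F => ∀ v, Q (g • v) = Q v := fun Q h => by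
    refine ⟨by simp, fun a b ha hb v => by rw [mul_smul, ha, hb], ?_,
      fun x => ⟨1, by simp, by simp⟩, fun z hz v => ?_⟩
    · by_contra! h4
      have h5 : ∀ v, v ≠ 0 → Q v = 1 := fun v hv => by
        obtain ⟨x, hx⟩ := Sp.exists_form_eq_one hv
        have := h4 (Sp.tv v 1) x
        rw [Sp.tv_smul, h.add, h.smul, Sp.form_skew, hx] at this
        simp only [map_smul, sympB_apply, Sp.form_skew x, hx] at this
        simp at this
        linear_combination this - h2
      have h6 := h.add (Pi.single (.inl ⟨0, by omega⟩) 1) (Pi.single (.inl ⟨1, by omega⟩) 1)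
      rw [h5, h5, h5] at h6
      · simp [Sp.form_single_inl_left] at h6
      · simp
      · simp
      · exact fun e => by simpa [Pi.single_apply, Fin.ext_iff] using congrFun e (.inl ⟨0, by omega⟩)
    · rcases Sp.mem_center_iff.1 hz with rfl | rfl
      · simp
      · simpa [Sp.negOne_smul] using h.smul (-1) v
  refine cov_of (hG _ h1) (hG _ h1') fun g => ?_
  obtain ⟨Q, h4, h5⟩ := h0.exists_pres h2 (g := Matrix.toLin' g.1) (Sp.form_smul_smul g)
  have key : ∀ Q', OF (sympB m F) Q' → (Plus F Q ↔ Plus F Q') →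
      ∃ x : Matrix.symplecticGroup (Fin m) F, ∀ v, Q' ((x * g * x⁻¹) • v) = Q' v := fun Q' h h6 => by
    obtain ⟨e, e1, e2⟩ := (hT _ h4).isometric_of_plus_iff (hT _ h) rfl (by simp) h6
    obtain ⟨x, hx⟩ := (spEquiv m F).surjective ⟨e, e1, fun _ => rfl⟩
    have h7 : ∀ v, x • v = e v := fun v => by
      rw [Sp.smul_def, ← spEquiv_apply, hx]
    refine ⟨x, fun v => ?_⟩
    rw [mul_smul, mul_smul, h7, e2, ← smul_inv_smul x v, h7, e2, ← h7, inv_smul_smul]
    exact h5.map_Q _
  rcases h3 Q h4 with h | h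
  · exact (key _ h1 h).imp fun x => .inl
  · exact (key _ h1' h).imp fun x => .inr

end Cfsg.Agent.Class.Cover
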