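import Cfsg.Agent.Class.Cover.UForm
import Cfsg.Agent.Class.U.Count
import Cfsg.Agent.Class.U.Simple
import Cfsg.Agent.Class.Wall.Jordan
import Cfsg.Agent.Class.FinFieldExt

/-! Normal coverings of `PSU_4(q)` and `PSU_3(3^a)`. -/

set_option autoImplicit false

namespace Cfsg.Agent.Class.Cover

open Polynomial Module Cfsg.Agent.KSG Cfsg.Agent.Class.Wall Cfsg.Agent.Class.U

theorem elemDiv_of_root {F V : Type*} [Field F] [AddCommGroup V] [Module F V]
    [FiniteDimensional F V] {g : End F V} {f : F[X]} (hf : Irreducible f) (hm : f.Monic)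
    (h : aeval g f = 0) : elemDiv g = Multiset.replicate (finrank F V / f.natDegree) f := by
  have h1 : ∀ b ∈ elemDiv g, b = f := fun b hb => by
    obtain ⟨e, h2, h3, rfl⟩ := (isPP_of_mem_elemDiv hb).eq_pow_of_dvd_pow hf hm (k := 1)
      (by simpa using (aeval_eq_zero_iff_elemDiv g f).1 h b hb)
    rw [show e = 1 by omega, pow_one]
  have h2 := Multiset.eq_replicate_card.2 h1
  have h3 := finrank_eq_sum_elemDiv g
  rw [h2] at h3 ⊢
  simp only [Multiset.map_replicate, Multiset.sum_replicate, smul_eq_mul] at h3 ⊢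
  rw [h3, Nat.mul_div_cancel _ hf.natDegree_pos]

theorem exists_root_ext {F E : Type*} [Field F] [Field E] [Algebra F E] [Finite E] {p : F[X]}
    (hp : Irreducible p) (h : p.natDegree ∣ finrank F E) : ∃ t : E, aeval t p = 0 := by
  have := Fact.mk hp
  have := (AdjoinRoot.powerBasis hp.ne_zero).finite
  obtain ⟨ψ⟩ := FiniteField.nonempty_algHom_of_finrank_dvd (F := F) (K := AdjoinRoot p)
    (L := E) (by rwa [finrank_adjoinRoot])
  exact ⟨ψ (AdjoinRoot.root p), by
    rw [aeval_algHom_apply, AdjoinRoot.aeval_eq, AdjoinRoot.mk_self, map_zero]⟩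

variable {F : Type*} [Field F] {q n : ℕ} [UF F q]

local notation "𝛔" => U.conj F q
local notation "𝐡" => hermForm n F q

omit [UF F q] in
theorem mul_mem_range {a x : GU n F q} (h : (detGU a : F) = (detGU x : F)⁻¹) :
    a * x ∈ (toGU : SU n F q →* GU n F q).range := by
  rw [range_toGU, MonoidHom.mem_ker, Units.ext_iff]
  simp [h]

theorem norm_det_inv (x : GU n F q) : (detGU x : F)⁻¹ * 𝛔 (detGU x : F)⁻¹ = 1 := by
  rw [map_inv₀, ← mul_inv, detGU_mul_conj, inv_one]

theorem good_point (hn : 2 ≤ n) {u : Fin n → F} (hu : 𝐡 u u = 1) :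
    Good (toGU : SU n F q →* GU n F q) (Subgroup.center _) fun g => ∃ c : F, g • u = c • u := by
  have h0 : 𝐡 u u ≠ 0 := hu ▸ one_ne_zero
  refine ⟨⟨1, by simp⟩, ?_, ?_, fun x => ?_, fun z hz => ?_⟩
  · rintro a b ⟨c, hc⟩ ⟨c', hc'⟩
    exact ⟨c' * c, by rw [mul_smul, hc', GU_smul_comm, hc, mul_smul]⟩
  · by_contra! h
    have h1 : ∀ i : Fin n, ∃ c : F, Pi.single i 1 = c • u := fun i => by
      obtain ⟨g, hg, -⟩ := exists_GU_smul_eq (y := Pi.single i 1) (by simp [hu, herm_single_single]) h0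
      exact hg ▸ h g
    obtain ⟨c, hc⟩ := h1 ⟨0, by omega⟩
    obtain ⟨d, hd⟩ := h1 ⟨1, by omega⟩
    have h2 := herm_single_single (F := F) (q := q) (⟨0, by omega⟩ : Fin n) ⟨1, by omega⟩
    rw [hc, hd, herm_smul_left, herm_smul_right, hu, if_neg (by simp)] at h2
    simp only [mul_one, mul_eq_zero, map_eq_zero] at h2
    rcases h2 with rfl | rfl
    · simp at hc
    · simp at hd
  · exact ⟨mkGU _ (pres_refl h0 (norm_det_inv x)), ⟨_, by rw [mkGU_smul, refl_mulVec_self h0]⟩,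
      mul_mem_range (by rw [detGU_mkGU, det_refl h0])⟩
  · obtain ⟨c, hc⟩ := (U.mem_center_iff hn).1 hz
    exact ⟨c, hc u⟩

theorem conj_point {u v : Fin n → F} (hu : 𝐡 u u = 1) (hv : 𝐡 v v ≠ 0) {g : GU n F q} {c : F}
    (hg : g • v = c • v) : ∃ x : GU n F q, ∃ c : F, (x * g * x⁻¹) • u = c • u := by
  obtain ⟨a, ha⟩ := exists_norm_eq (q := q) (μ := (𝐡 v v)⁻¹) (by rw [map_inv₀, herm_conj])
  have h1 : 𝐡 (a • v) (a • v) = 1 := by
    rw [herm_smul_left, herm_smul_right, ← mul_assoc, ha, inv_mul_cancel₀ hv]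
  obtain ⟨x, hx, -⟩ := exists_GU_smul_eq (h1.trans hu.symm) (h1 ▸ one_ne_zero)
  exact ⟨x, c, by rw [← hx, ← mul_smul, inv_mul_cancel_right, mul_smul, GU_smul_comm, hg, smul_comm a,
    GU_smul_comm]⟩

theorem good_ts (hn : 2 ≤ n) {W : Submodule F (Fin n → F)} (h0 : W ≠ ⊥)
    (hW : ∀ x ∈ W, hermB n F q x x = 0) :
    Good (toGU : SU n F q →* GU n F q) (Subgroup.center _) fun g => ∀ v ∈ W, g • v ∈ W := by
  have h := isHermSpace_hermB n F q
  have h1 := (two_mul_finrank_le h hW).1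
  obtain ⟨u, u1, u2⟩ := Submodule.exists_mem_ne_zero_of_ne_bot h0
  obtain ⟨v, v1, v2, -⟩ := h.exists_partner ⊥ (x := u) (by simpa) (hW u u1) (by simp [herm_zero_right])
  refine ⟨by simp, fun a b ha hb v hv => by rw [mul_smul]; exact ha _ (hb v hv), ?_, fun x => ?_,
    fun z hz => ?_⟩
  · obtain ⟨g, g1, g2, g3⟩ := h.witt_vector u2 (v := v) (by rintro rfl; simp at v2)
      (v1.trans (hW u u1).symm)
    obtain ⟨x, hx⟩ := (guEquiv n F q).surjective ⟨g, g1, g2⟩
    refine ⟨x, fun h2 => ?_⟩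
    have h3 := h2 u u1
    rw [GU_smul_def, ← guEquiv_apply, hx] at h3
    exact one_ne_zero (v2.symm.trans (h1 v (g3 ▸ h3) u u1))
  · obtain ⟨s, s1, s2⟩ := exists_conj_div_eq (norm_det_inv x)
    refine ⟨mkGU _ (pres_hypDiag (hW u u1) v1 v2 (l := 𝛔 s) (m := s⁻¹) (by simp [s1])),
      fun y hy => ?_, mul_mem_range ?_⟩
    · rw [mkGU_smul, hypDiag_mulVec v1, show 𝐡 y u = 0 from h1 u u1 y hy, mul_zero, zero_smul,
        add_zero]
      exact W.add_mem hy (W.smul_mem _ u1)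
    · rw [detGU_mkGU, det_hypDiag v2, s2, mul_inv_cancel_right₀ s1]
  · obtain ⟨c, hc⟩ := (U.mem_center_iff hn).1 hz
    exact fun v hv => (hc v).symm ▸ W.smul_mem c hv

theorem cov_PSU4 : Cov (PSU 4 F q) := by
  have : Finite F := UF.finite q
  have h := isHermSpace_hermB 4 F q
  have hu : hermForm 4 F q (Pi.single 0 1) (Pi.single 0 1) = 1 := by simp [herm_single_single]
  have hP := good_point (by norm_num) hu
  have key : ∀ g : GU 4 F q, (∃ x : GU 4 F q, ∃ c : F, (x * g * x⁻¹) • (Pi.single 0 1 : Fin 4 → F) =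
      c • Pi.single 0 1) ∨ ∃ W : Submodule F (Fin 4 → F), finrank F W = 2 ∧
      (∀ x ∈ W, hermB 4 F q x x = 0) ∧ ∀ v ∈ W, g • v ∈ W := fun g => by
    refine or_iff_not_imp_left.2 fun h1 => u4 h (g := Matrix.toLin' g.1.1) (fun x y => g.2 y x)
      (by simp) fun v c hv => by_contra fun h2 => h1 (conj_point hu h2 hv)
  by_cases h1 : ∃ W : Submodule F (Fin 4 → F), finrank F W = 2 ∧ ∀ x ∈ W, hermB 4 F q x x = 0
  swap
  · exact cov_of hP hP fun g => ((key _).resolve_right fun ⟨W, h2, h3, _⟩ => h1 ⟨W, h2, h3⟩).imp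
      fun x => .inl
  obtain ⟨W, h1, h2⟩ := h1
  refine cov_of hP (good_ts (by norm_num) (by rintro rfl; simp at h1) h2) fun g => ?_
  rcases key (toGU g) with h3 | ⟨W', h3, h4, h5⟩
  · exact h3.imp fun x => .inl
  obtain ⟨y, rfl⟩ := h.exists_map_eq_of_totallySingular (h3.trans h1.symm)
    (two_mul_finrank_le h h4).1 h4 (two_mul_finrank_le h h2).1 h2
  obtain ⟨x, rfl⟩ := (guEquiv 4 F q).surjective y
  refine ⟨x, .inr ?_⟩
  rintro _ ⟨v, hv, rfl⟩
  exact ⟨_, h5 v hv, show x • toGU g • v = (x * toGU g * x⁻¹) • x • v by simp [mul_smul]⟩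

theorem cov_PSU3 [CharP F 3] : Cov (PSU 3 F q) := by
  have : Finite F := UF.finite q
  have := Fintype.ofFinite F
  have hF : Fintype.card F = q ^ 2 := by rw [← Nat.card_eq_fintype_card]; exact UF.card_eq
  have h := isHermSpace_hermB 3 F q
  have hu : hermForm 3 F q (Pi.single 0 1) (Pi.single 0 1) = 1 := by simp [herm_single_single]
  obtain ⟨r, a, hr, hc, hq, -⟩ := exists_prime_pow F q
  obtain rfl := CharP.eq F hc ‹CharP F 3›
  let E := FiniteField.Extension F 3 3
  have hE : finrank F E = 3 := FiniteField.finrank_extension F 3 3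
  have : CharP E 3 := charP_of_injective_algebraMap (algebraMap F E).injective 3
  let τ := iterateFrobeniusEquiv E 3 (a * 3)
  have t0 : ∀ x, τ x = x ^ q ^ 3 := fun x => by rw [hq, ← pow_mul]; rfl
  have t1 : ∀ x, τ (τ x) = x := fun x => by
    have := Fintype.ofFinite E
    rw [t0, t0, ← pow_mul, ← pow_add, show q ^ (3 + 3) = Fintype.card E by
      rw [← Nat.card_eq_fintype_card, FiniteField.natCard_extension, UF.card_eq (q := q), ← pow_mul],
      FiniteField.pow_card]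
  have t2 : ∀ c : F, τ (algebraMap F E c) = algebraMap F E (𝛔 c) := fun c => by
    rw [t0, ← map_pow, pow_succ, pow_mul, ← hF, FiniteField.pow_card, conj_apply]
  have t3 : ∀ z, 𝛔 (Algebra.trace F E z) = Algebra.trace F E (τ z) := fun z => by
    let s : F ≃+* F := RingEquiv.ofBijective 𝛔 (Function.Involutive.bijective conj_conj)
    rw [Algebra.trace_eq_of_equiv_equiv s τ (RingHom.ext fun c => (t2 c).symm) z]
    exact s.apply_symm_apply _
  let B : E →ₛₗ[𝛔] E →ₗ[F] F := LinearMap.mk₂'ₛₗ 𝛔 (RingHom.id F)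
    (fun x y => Algebra.trace F E (τ x * y)) (by simp [add_mul]) (fun c x y => by
      rw [Algebra.smul_def, map_mul τ, t2, mul_assoc, ← Algebra.smul_def, map_smul])
    (by simp [mul_add]) (by simp)
  have hB0 : ∀ x y, B x y = Algebra.trace F E (τ x * y) := fun _ _ => rfl
  have hB : IsHermSpace q B := isFormed_of_hermitian (conj_ne_id F q) conj_conj
    ⟨fun x y => by rw [hB0, hB0, t3, map_mul, t1, mul_comm]⟩
    ⟨fun x hx => τ.map_eq_zero_iff.1 ((traceForm_nondegenerate F E).1 _ hx),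
      fun y hy => (traceForm_nondegenerate F E).2 _ fun x => by simpa [hB0, t1] using hy (τ x)⟩
  obtain ⟨e, he⟩ := hB.exists_equiv hE
  let Q : GU 3 F q → Prop := fun g => ∃ φ : E →ₐ[F] E, ∀ a x,
    g • e (a * x) = e (φ a * e.symm (g • e x))
  have key : ∀ (g : GU 3 F q) (k : End F E) (φ : E →ₐ[F] E), (∀ x y, B (k x) (k y) = B x y) →
      (∀ a x, k (a * x) = φ a * k x) → elemDiv (Matrix.toLin' g.1.1) = elemDiv k →
      ∃ x, Q (x * g * x⁻¹) := fun g k φ k1 k2 k3 => by
    obtain ⟨y, y1, y2, y3⟩ := h.isoSim hB (g := Matrix.toLin' g.1.1) (fun x y => g.2 y x) k1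
      (sim_of_elemDiv_eq k3)
    obtain ⟨x, hx⟩ := (guEquiv 3 F q).surjective
      ⟨y.trans e, fun u v => (he _ _).trans (y1 u v), fun u => (he _ _).trans (y1 u u)⟩
    have h1 : ∀ v, x • v = e (y v) := fun v => by rw [GU_smul_def, ← guEquiv_apply, hx]; rfl
    have h2 : ∀ v, (x * g * x⁻¹) • e v = e (k v) := fun v => by
      obtain ⟨v, rfl⟩ := y.surjective v
      rw [← h1, ← mul_smul, inv_mul_cancel_right, mul_smul, h1, ← y3]; rfl
    exact ⟨x, φ, fun a x => by rw [h2, h2, k2, e.symm_apply_apply]⟩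
  have hs : ∀ (g : GU 3 F q) (c : F), (∀ v : Fin 3 → F, g • v = c • v) → Q g := fun g c hc =>
    ⟨AlgHom.id F E, fun a x => by simp [hc]⟩
  refine cov_of (good_point (by norm_num) hu) (Q := Q) ⟨hs 1 1 (by simp), ?_, ?_, fun x => ?_,
    fun z hz => ?_⟩ fun g => ?_
  · rintro a b ⟨φ, h1⟩ ⟨ψ, h2⟩
    exact ⟨φ.comp ψ, fun c x => by rw [mul_smul, h2, h1, e.apply_symm_apply, mul_smul]; rfl⟩
  · have h0 := hu.trans_ne one_ne_zero
    refine ⟨mkGU _ (pres_refl h0 (e := -1) (by simp)), fun ⟨φ, h1⟩ => ?_⟩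
    have h2 : ∀ b : E, ∃ x : E, x ≠ 0 ∧ e x 0 = 0 ∧ e (b * x) 0 = 0 := fun b => by
      obtain ⟨x, x1, x2⟩ := Submodule.exists_mem_ne_zero_of_ne_bot (LinearMap.ker_ne_bot_of_finrank_lt
        (f := ((LinearMap.proj 0).comp e.toLinearMap).prod
          ((LinearMap.proj 0).comp (e.toLinearMap.comp (LinearMap.mulLeft F b)))) (by simp [hE]))
      exact ⟨x, x2, congrArg Prod.fst x1, congrArg Prod.snd x1⟩
    have h3 : ∀ x : Fin 3 → F, x 0 = 0 → mkGU _ (pres_refl h0 (e := -1) (by simp)) • x = x :=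
      fun x hx => by rw [mkGU_smul, unitaryTransvection_mulVec_of_orth _ (by rwa [herm_single_right])]
    obtain ⟨x, x1, x2, -⟩ := h2 0
    obtain ⟨y, y1, y2, y3⟩ := h2 (e.symm (Pi.single 0 1) / x)
    have h4 := h1 (e.symm (Pi.single 0 1) / x) y
    rw [h3 _ y2, h3 _ y3, e.symm_apply_apply, e.injective.eq_iff, mul_left_inj' y1] at h4
    have h5 := h1 (e.symm (Pi.single 0 1) / x) x
    rw [h3 _ x2, ← h4, e.symm_apply_apply, div_mul_cancel₀ _ x1, e.apply_symm_apply, mkGU_smul,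
      refl_mulVec_self h0] at h5
    have h6 : (3 : F) = 0 := CharP.cast_eq_zero F 3
    have h7 := congrFun h5 0
    simp only [Pi.smul_apply, Pi.single_eq_same, smul_eq_mul] at h7
    exact one_ne_zero (α := F) (by linear_combination h6 + h7)
  · obtain ⟨c, hc⟩ := surjective_frobenius F 3 (detGU x : F)⁻¹
    have h1 : c * 𝛔 c = 1 := (frobenius F 3).injective (by
      rw [map_mul, hc, map_one, frobenius_def, ← map_pow, ← frobenius_def, hc, norm_det_inv])
    exact ⟨mkGU _ (pres_scalar h1), hs _ c fun v => by simp [mkGU_smul, Matrix.smul_mulVec],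
      mul_mem_range (by simp [detGU_mkGU, ← hc, frobenius_def])⟩
  · obtain ⟨c, hc⟩ := (U.mem_center_iff (by norm_num)).1 hz
    exact hs _ c hc
  by_cases h1 : ∃ v : Fin 3 → F, ∃ c : F, toGU g • v = c • v ∧ hermForm 3 F q v v ≠ 0
  · obtain ⟨v, c, h1, h2⟩ := h1
    exact (conj_point hu h2 h1).imp fun x => .inl
  push Not at h1
  refine Exists.imp (fun x => .inr) ?_
  have h2 := GU_map_dual_mdiv (toGU g)
  have h3 := sum_natDegree_mdiv (toGU g).1.1
  have h4 : ∀ b ∈ mdiv (toGU g).1.1, ¬ X ∣ b := (isUnit_iff_mdiv _).1 (toGU g).1.isUnit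
  have h5 := @isPP_of_mem_mdiv _ _ _ _ _ (toGU g).1.1
  rw [mdiv] at h2 h3 h4 h5
  rcases u3 h (g := Matrix.toLin' (toGU g).1.1) (fun x y => g.2 y x) (by simp) h1 with
    ⟨p, p1, p2⟩ | ⟨c, p2⟩ <;> rw [p2] at h2 h3 h4 h5 <;>
    simp only [Multiset.map_singleton, Multiset.singleton_inj, Multiset.sum_singleton,
      Fintype.card_fin, Multiset.mem_singleton, forall_eq, X_dvd_iff] at h2 h3 h4 h5
  · obtain ⟨t, ht⟩ := exists_root_ext (E := E) p1 (by rw [hE, h3])
    have h6 := aeval_eq_zero_of_dvd_aeval_eq_zero (odd_of_dual p1 h4 h2).2 ht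
    simp only [h3, map_sub, map_pow, aeval_X, map_one, sub_eq_zero, pow_succ t, ← t0] at h6
    refine key _ (Algebra.lmul F E t) (AlgHom.id F E) (fun x y => ?_) (fun a x => ?_) ?_
    · simp only [hB0, Algebra.coe_lmul_eq_mul, LinearMap.mul_apply', map_mul]
      rw [mul_mul_mul_comm, h6, one_mul]
    · simp [mul_left_comm]
    · rw [p2, elemDiv_of_root p1 h5.monic (by rw [aeval_algHom_apply, ht, map_zero]), hE, h3]; rfl
  · have c0 : c ≠ 0 := by rintro rfl; simp at h4
    rw [dual_pow, dual_X_sub_C c0] at h2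
    have h6 : c * 𝛔 c = 1 := by
      nth_rw 1 [← (X_sub_C_pow_inj three_ne_zero h2).1]; simp [c0]
    let φ := FiniteField.frobeniusAlgEquivOfAlgebraic F E
    have h7 : ∀ x, φ x = x ^ q ^ 2 := fun x => by rw [← hF]; rfl
    refine key _ (c • φ.toLinearMap) φ (fun x y => ?_) (fun a x => by simp) ?_
    · simp only [LinearMap.smul_apply, map_smulₛₗ, smul_eq_mul, RingHom.id_apply]
      rw [← mul_assoc, h6, one_mul, hB0, hB0, ← Algebra.trace_eq_of_algEquiv φ (τ x * y), map_mul φ]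
      congr 2
      rw [AlgEquiv.toLinearMap_apply, t0, h7, t0, h7, pow_right_comm]
    · have h8 : ∀ v, aeval (c • φ.toLinearMap) (X - C c) v = c • (φ v - v) := fun v => by
        simp [smul_sub]
      refine p2.trans (hE ▸ elemDiv_of_block (c := c) (k := 3) (by omega)
        (LinearMap.ext fun v => ?_) ?_).symm
      · have h9 : φ (φ (φ v)) = v := by
          conv_rhs => rw [← t1 v, t0, t0]
          simp only [h7, ← pow_mul, ← pow_add]
        have h10 : (3 : E) = 0 := CharP.cast_eq_zero E 3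
        rw [map_pow, pow_three, End.mul_apply, End.mul_apply, h8, h8, h8]
        simp only [Algebra.smul_def, map_mul, map_sub, h9, AlgEquiv.commutes, LinearMap.zero_apply]
        linear_combination algebraMap F E c ^ 3 * (φ v - φ (φ v)) * h10
      · refine (Submodule.finrank_mono (t := F ∙ (1 : E)) fun v hv => ?_).trans
          (finrank_span_singleton one_ne_zero).le
        rw [LinearMap.mem_ker, h8, smul_eq_zero, or_iff_right c0, sub_eq_zero] at hv
        obtain ⟨d, rfl⟩ := (FinExt.mem_range_algebraMap_iff v).2 hv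
        exact Submodule.mem_span_singleton.2 ⟨d, (Algebra.algebraMap_eq_smul_one d).symm⟩

end Cfsg.Agent.Class.Cover
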