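import Cfsg.Agent.Class.Cover.SpForm
import Cfsg.Agent.Class.Cover.U

/-! `Sp_6(3^a)` is covered by the conjugates of `Sp_2 × Sp_4` and `Sp_2(q^3).3`. -/

set_option autoImplicit false

namespace Cfsg.Agent.Class.Cover

open Polynomial Module Cfsg.Agent.KSG Cfsg.Agent.Class.Wall

variable {F E : Type*} [Field F] [Field E] [Algebra F E]

variable (F E) in
/-- The trace of the standard alternating form on `E × E`. -/
noncomputable def tB : LinearMap.BilinForm F (E × E) :=
  LinearMap.mk₂ F (fun v w => Algebra.trace F E (v.1 * w.2 - v.2 * w.1))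
    (fun x y z => by rw [← map_add]; congr 1; simp; ring) (fun c x y => by simp [mul_sub])
    (fun x y z => by rw [← map_add]; congr 1; simp; ring) (fun c x y => by simp [mul_sub])

theorem tB_apply (v w : E × E) : tB F E v w = Algebra.trace F E (v.1 * w.2 - v.2 * w.1) := rfl

/-- The semilinear map `x ↦ t * φ x`. -/
def sc (t : E) (φ : E ≃ₐ[F] E) : End F E := LinearMap.mulLeft F t ∘ₗ φ.toLinearMap

@[simp] theorem sc_apply (t : E) (φ : E ≃ₐ[F] E) (x : E) : sc t φ x = t * φ x := rfl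

/-- A semilinear map of `E × E`. -/
def sl (a b c d : E) (φ : E ≃ₐ[F] E) : End F (E × E) :=
  ((sc a φ).coprod (sc b φ)).prod ((sc c φ).coprod (sc d φ))

@[simp] theorem sl_apply (a b c d : E) (φ : E ≃ₐ[F] E) (v : E × E) :
    sl a b c d φ v = (a * φ v.1 + b * φ v.2, c * φ v.1 + d * φ v.2) := rfl

theorem sl_pres {a b c d : E} (h : a * d - b * c = 1) (φ : E ≃ₐ[F] E) (v w : E × E) :
    tB F E (sl a b c d φ v) (sl a b c d φ w) = tB F E v w := by
  rw [tB_apply, tB_apply, ← Algebra.trace_eq_of_algEquiv φ (v.1 * w.2 - v.2 * w.1)]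
  congr 1
  simp only [sl_apply, map_sub, map_mul]
  linear_combination (φ v.1 * φ w.2 - φ v.2 * φ w.1) * h

theorem sl_smul (a b c d : E) (φ : E ≃ₐ[F] E) (t : E) (v : E × E) :
    sl a b c d φ (t • v) = φ t • sl a b c d φ v := by
  ext <;> simp <;> ring

variable [Finite F] [Finite E]

theorem isSympSpace_tB : IsSympSpace (tB F E) := by
  have h : ∀ v, (∀ w, tB F E v w = 0) → v = 0 := fun v hv => Prod.ext
    ((traceForm_nondegenerate F E).1 _ fun y => by simpa [tB_apply] using hv (0, y))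
    ((traceForm_nondegenerate F E).1 _ fun y => by simpa [tB_apply] using hv (y, 0))
  have h1 : (tB F E).IsAlt := fun v => by simp [tB_apply, mul_comm]
  exact isFormed_of_isAlt ⟨h, fun v hv => h v fun w => h1.isRefl _ _ (hv w)⟩ h1

variable (E) in
/-- `s` is realised by a semilinear isometry. -/
def InK (s : Multiset F[X]) : Prop :=
  ∃ (a b c d : E) (φ : E ≃ₐ[F] E), a * d - b * c = 1 ∧ elemDiv (sl a b c d φ) = s

omit [Finite F] in
theorem inK_diag {t : E} (ht : t ≠ 0) (φ : E ≃ₐ[F] E) :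
    InK E (elemDiv (sc t φ) + elemDiv (sc t⁻¹ φ)) :=
  ⟨t, 0, 0, t⁻¹, φ, by simp [ht], by
    rw [← elemDiv_prodMap]; exact congrArg _ (LinearMap.ext fun v => by simp)⟩

omit [Finite F] in
theorem elemDiv_sc_root (hE : finrank F E = 3) {p : F[X]} (hp : Irreducible p) (hm : p.Monic)
    (hd : p.natDegree = 3) {t : E} (ht : aeval t p = 0) : elemDiv (sc t (AlgEquiv.refl (R := F))) = {p} := by
  rw [show sc t AlgEquiv.refl = Algebra.lmul F E t from LinearMap.ext fun _ => rfl,
    elemDiv_of_root hp hm (by rw [aeval_algHom_apply, ht, map_zero]), hE, hd]; rfl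

theorem inK_six (hE : finrank F E = 3) {p : F[X]} (hp : Irreducible p) (hm : p.Monic)
    (hd : p.natDegree = 6) (h : p ∣ X ^ (Nat.card F ^ 3 + 1) - 1) : InK E {p} := by
  have := Fact.mk hp
  have := (AdjoinRoot.powerBasis hp.ne_zero).finite
  have : Finite (AdjoinRoot p) := Module.finite_of_finite F
  have h0 := finrank_adjoinRoot p
  obtain ⟨ψ⟩ := FiniteField.nonempty_algHom_of_finrank_dvd (F := F) (K := E)
    (L := AdjoinRoot p) (by rw [hE, h0, hd]; norm_num)
  let _ := ψ.toAlgebra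
  have : IsScalarTower F E (AdjoinRoot p) := .of_algebraMap_eq fun x => (ψ.commutes x).symm
  have : FiniteDimensional E (AdjoinRoot p) := .of_finite
  have h1 := finrank_mul_finrank F E (AdjoinRoot p)
  have h2 : finrank E (AdjoinRoot p) = 2 := by rw [hE, h0, hd] at h1; omega
  let b := finBasisOfFinrankEq E _ h2
  let A := Algebra.leftMulMatrix b (AdjoinRoot.root p)
  refine ⟨A 0 0, A 0 1, A 1 0, A 1 1, AlgEquiv.refl, ?_, ?_⟩
  · rw [← Matrix.det_fin_two, ← Algebra.norm_eq_matrix_det]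
    apply (algebraMap E (AdjoinRoot p)).injective
    rw [← AdjoinRoot.mk_eq_zero, ← AdjoinRoot.aeval_eq] at h
    rw [FiniteField.algebraMap_norm_eq_prod_pow, h2, natCard_eq_pow_finrank (K := F) (V := E), hE]
    simpa [Finset.prod_range_succ, pow_succ', sub_eq_zero] using h
  · rw [← elemDiv_lmul_root (IsPP.of_irreducible hp hm)]
    refine (Sim.elemDiv_eq ⟨(b.equivFun.trans (LinearEquiv.finTwoArrow E E)).restrictScalars F,
      fun x => ?_⟩).symm
    have := Algebra.leftMulMatrix_mulVec_repr b (AdjoinRoot.root p) x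
    ext
    · simpa [A, Matrix.mulVec, dotProduct] using (congrFun this 0).symm
    · simpa [A, Matrix.mulVec, dotProduct] using (congrFun this 1).symm

variable [CharP F 3]

theorem exists_frob (hE : finrank F E = 3) : ∃ (φ : E ≃ₐ[F] E) (θ : E), (3 : E) = 0 ∧
    (∀ x, φ (φ (φ x)) = x) ∧ θ + φ θ + φ (φ θ) = 1 ∧ (∀ x, φ x = x → x ∈ F ∙ (1 : E)) ∧
    ∀ c : F, c ≠ 0 → elemDiv (sc (algebraMap F E c) φ) = {(X - C c) ^ 3} := by
  have := Fintype.ofFinite F
  have := Fintype.ofFinite E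
  have : CharP E 3 := charP_of_injective_algebraMap (algebraMap F E).injective 3
  let φ := FiniteField.frobeniusAlgEquivOfAlgebraic F E
  have h7 : ∀ x, φ x = x ^ Fintype.card F := fun x => rfl
  have h10 : (3 : E) = 0 := CharP.cast_eq_zero E 3
  have h9 : ∀ v, φ (φ (φ v)) = v := fun v => by
    conv_rhs => rw [← FiniteField.pow_card v, card_eq_pow_finrank (K := F), hE]
    simp only [h7, ← pow_mul, pow_three, mul_assoc]
  have h11 : ∀ x, φ x = x → x ∈ F ∙ (1 : E) := fun x hx => by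
    obtain ⟨d, rfl⟩ := (FinExt.mem_range_algebraMap_iff x).2 hx
    exact Submodule.mem_span_singleton.2 ⟨d, (Algebra.algebraMap_eq_smul_one d).symm⟩
  obtain ⟨θ, hθ⟩ := Algebra.trace_surjective F E 1
  refine ⟨φ, θ, h10, h9, ?_, h11, fun c c0 => ?_⟩
  · have := FiniteField.algebraMap_trace_eq_sum_pow F E θ
    rw [hθ, hE] at this
    simpa [Finset.sum_range_succ, h7, ← pow_mul, sq] using this.symm
  have h8 : ∀ v, aeval (sc (algebraMap F E c) φ) (X - C c) v = c • (φ v - v) := fun v => by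
    simp [mul_sub, Algebra.smul_def]
  refine hE ▸ elemDiv_of_block (c := c) (k := 3) (by omega) (LinearMap.ext fun v => ?_) ?_
  · rw [map_pow, pow_three, End.mul_apply, End.mul_apply, h8, h8, h8]
    simp only [Algebra.smul_def, map_mul, map_sub, h9, AlgEquiv.commutes, LinearMap.zero_apply]
    linear_combination algebraMap F E c ^ 3 * (φ v - φ (φ v)) * h10
  · refine (Submodule.finrank_mono (t := F ∙ (1 : E)) fun v hv => h11 v ?_).trans
      (finrank_span_singleton one_ne_zero).le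
    rwa [LinearMap.mem_ker, h8, smul_eq_zero, or_iff_right c0, sub_eq_zero] at hv

theorem inK_pair (hE : finrank F E = 3) {c : F} (hc : c ≠ 0) :
    InK E ({(X - C c) ^ 3} + {(X - C c⁻¹) ^ 3}) := by
  obtain ⟨φ, θ, -, -, -, -, h⟩ := exists_frob hE
  rw [← h c hc, ← h _ (inv_ne_zero hc), map_inv₀]
  exact inK_diag (by simpa) φ

theorem inK_block (hE : finrank F E = 3) {c : F} (hc : c * c = 1) : InK E {(X - C c) ^ 6} := by
  obtain ⟨φ, θ, h3, h1, h2, h4, h⟩ := exists_frob hE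
  have c0 := left_ne_zero_of_mul_eq_one hc
  have h5 := (aeval_eq_zero_iff_elemDiv (sc (algebraMap F E c) φ) ((X - C c) ^ 3)).2 (by simp [h c c0])
  set a := algebraMap F E c with ha
  have h6 : finrank F (E × E) = 6 := by simp [hE]
  refine ⟨a, a * θ, 0, a, φ, by simp [ha, ← map_mul, hc], h6 ▸ elemDiv_of_block (k := 3 + 3)
    (by omega) (LinearMap.ext fun v => ?_) ?_⟩
  · have h7 := aeval_comm_of_comm (f := sl a (a * θ) 0 a φ) (g := sc a φ) (LinearMap.snd F E E)
      (by simp) ((X - C c) ^ 3) v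
    have h8 := aeval_comm_of_comm (g := sl a (a * θ) 0 a φ) (f := sc a φ) (LinearMap.inl F E E)
      (by simp) ((X - C c) ^ 3) (aeval (sl a (a * θ) 0 a φ) ((X - C c) ^ 3) v).1
    rw [h5] at h7 h8
    rw [pow_add, map_mul, End.mul_apply]
    generalize aeval (sl a (a * θ) 0 a φ) ((X - C c) ^ 3) = T at *
    rw [show T v = LinearMap.inl F E E (T v).1 from Prod.ext rfl h7, ← h8]
    rfl
  · refine (Submodule.finrank_mono (t := F ∙ ((1, 0) : E × E)) fun v hv => ?_).trans
      (finrank_span_singleton (by simp)).le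
    have a0 : a ≠ 0 := by simpa [ha]
    simp only [LinearMap.mem_ker, map_sub, aeval_X, aeval_C, LinearMap.sub_apply, sl_apply,
      algebraMap_end_apply, sub_eq_zero, Prod.ext_iff, Prod.smul_fst, Prod.smul_snd, zero_mul,
      zero_add] at hv
    simp only [Algebra.smul_def, ← ha, mul_assoc, ← mul_add, mul_right_inj' a0] at hv
    obtain ⟨h7, h8⟩ := hv
    have h9 := congrArg φ h7
    have h10 := congrArg φ h9
    simp only [map_add, map_mul, h8, h1] at h7 h9 h10
    have h11 : v.2 = 0 := by linear_combination h7 + h9 + h10 - v.2 * h2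
    obtain ⟨d, hd⟩ := Submodule.mem_span_singleton.1 (h4 v.1 (by simpa [h11] using h7))
    exact Submodule.mem_span_singleton.2 ⟨d, Prod.ext hd (by simp [h11])⟩

theorem inK_two (hE : finrank F E = 3) {p : F[X]} (hp : Irreducible p) (hm : p.Monic)
    (hd : p.natDegree = 2) (h0 : p.coeff 0 = 1) : InK E {p ^ 3} := by
  obtain ⟨φ, θ, h3, h1, h2, -, h⟩ := exists_frob hE
  have h4 := eq_quadratic_of_degree_le_two (degree_le_of_natDegree_le hd.le)
  rw [h0, show p.coeff 2 = 1 from hd ▸ hm] at h4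
  set a := algebraMap F E (-p.coeff 1) with ha
  have a0 : φ a = a := φ.commutes _
  let u := sl (1 : E) 0 0 1 φ
  let S := sl (0 : E) (-1) 1 a (AlgEquiv.refl (R := F))
  have h5 : Commute u S := LinearMap.ext fun v => by simp [u, S, a0]
  have h6 : aeval (sl 0 (-1) 1 a φ) p = (S * S * u - 1) * (u - 1) := LinearMap.ext fun v => by
    rw [h4]
    ext <;> simp [u, S, sq, Algebra.smul_def, ha] <;> ring
  have h7 : Commute (S * S * u - 1) (u - 1) :=
    (((h5.symm.mul_left h5.symm).mul_left (Commute.refl u)).sub_left (Commute.one_left u)).sub_right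
      (Commute.one_right _)
  have h8 : (u - 1) ^ 3 = 0 := LinearMap.ext fun v => by
    ext <;> simp [u, pow_three, h1]
    · linear_combination (φ v.1 - φ (φ v.1)) * h3
    · linear_combination (φ v.2 - φ (φ v.2)) * h3
  have h9 : ∀ b ∈ elemDiv (sl 0 (-1) 1 a φ), b ∣ p ^ 3 := (aeval_eq_zero_iff_elemDiv _ _).1 (by
    rw [map_pow, h6, h7.mul_pow, h8, mul_zero])
  obtain ⟨b, b1, b2⟩ : ∃ b ∈ elemDiv (sl 0 (-1) 1 a φ), ¬ b ∣ p ^ 2 := by
    by_contra! h10
    have h11 := LinearMap.congr_fun ((aeval_eq_zero_iff_elemDiv _ _).2 h10) (θ, 0)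
    have h12 : ((u - 1) ^ 2 : End F (E × E)) (θ, 0) = (1, 0) := by
      ext <;> simp [u, sq]
      linear_combination h2 - φ θ * h3
    rw [map_pow, h6, h7.mul_pow, End.mul_apply, h12] at h11
    have h13 := congrArg Prod.fst h11
    simp [u, S, sq, a0] at h13
    have h14 : p.coeff 1 * p.coeff 1 = 4 := (algebraMap F E).injective (by
      simp only [ha, map_neg, map_mul, map_ofNat] at h13 ⊢
      linear_combination -h13)
    have h15 : (3 : F) = 0 := CharP.cast_eq_zero F 3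
    generalize p.coeff 1 = r at h4 h14
    have : p.natDegree = 1 := natDegree_eq_of_degree_eq_some (degree_eq_one_of_irreducible_of_root hp
      (x := r) (by rw [IsRoot, h4]; simp; linear_combination 2 * h14 + 3 * h15))
    omega
  obtain ⟨e, -, e1, rfl⟩ := (isPP_of_mem_elemDiv b1).eq_pow_of_dvd_pow hp hm (h9 b b1)
  obtain rfl : e = 3 := by_contra fun e2 => b2 (pow_dvd_pow p (by omega))
  refine ⟨0, -1, 1, a, φ, by simp, ?_⟩
  obtain ⟨t, ht⟩ := Multiset.exists_cons_of_mem b1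
  have h10 := finrank_eq_sum_elemDiv (sl 0 (-1) 1 a φ)
  rw [ht, Multiset.map_cons, Multiset.sum_cons, natDegree_pow, hd, finrank_prod, hE,
    left_eq_add, Multiset.sum_eq_zero_iff] at h10
  rw [ht, Multiset.eq_zero_of_forall_notMem (s := t) fun a ha => (isPP_of_mem_elemDiv
    (ht ▸ Multiset.mem_cons_of_mem ha)).natDegree_pos.ne' (h10 _ (Multiset.mem_map_of_mem _ ha))]
  rfl

theorem inK_of_not_dec (hE : finrank F E = 3) {g : End F (E × E)}
    (hg : ∀ x y, tB F E (g x) (g y) = tB F E x y) (hd : ¬ Dec (tB F E) g 2) :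
    InK E (elemDiv g) ∧ ((∃ b, elemDiv g = {b}) ∨ ∀ b ∈ elemDiv g, b.natDegree = 3) := by
  have h := isSympSpace_tB (F := F) (E := E)
  have h2 : (2 : F) ≠ 0 := fun e => one_ne_zero (α := F) (by
    linear_combination (CharP.cast_eq_zero F 3 : (3 : F) = 0) - e)
  have h0 := finrank_eq_sum_elemDiv g
  have h1 := h.nd.map_dual_elemDiv hg
  have h3 := @isPP_of_mem_elemDiv _ _ _ _ _ _ g
  have h4 := @coeff_zero_ne_of_mem_elemDiv _ _ _ _ _ _ g
    ((show Pres _ (fun _ => 0) g from ⟨hg, fun _ => rfl⟩).isUnit h.nd)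
  rw [finrank_prod, hE] at h0
  rcases sp6 h2 h hg (by simp [hE]) hd with ⟨c, hc, e | e⟩ | ⟨b, hb, e | ⟨h5, e⟩⟩ <;>
    rw [e] at h0 h1 h3 h4 ⊢
  · exact ⟨inK_block hE hc, .inl ⟨_, rfl⟩⟩
  · refine ⟨?_, .inr (by simp [natDegree_pow])⟩
    simpa [inv_eq_of_mul_eq_one_left hc] using inK_pair hE (left_ne_zero_of_mul_eq_one hc)
  · refine ⟨?_, .inl ⟨_, rfl⟩⟩
    obtain ⟨p, k, p1, p2, p3, rfl⟩ := h3 (Multiset.mem_singleton_self b)
    have h6 := coeff_zero_ne_of_dvd (dvd_pow_self p p3.ne') (h4 (Multiset.mem_singleton_self _))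
    rw [Multiset.map_singleton, Multiset.singleton_inj, dual_pow] at h1
    have h7 := (pow_eq_pow_monic_irreducible (irreducible_dual (fun _ => rfl) p1 h6) (monic_dual h6)
      p1 p2 p3 h1).1
    have h8 := hb.of_isCoprime_of_dvd_right (dvd_pow_self p p3.ne')
    have h9 : ∀ c : F, c * c = 1 → ¬ X - C c ∣ p := fun c hc e => (irreducible_X_sub_C c).not_isUnit
      (h8.isUnit_of_dvd' (dvd_iff_isRoot.2 (by simp [sq, hc])) e)
    have h10 := FG.coeff_zero_eq_one_of_dual h7 (h9 1 (by simp))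
    obtain ⟨m, hm⟩ := FG.even_natDegree_of_dual h10 h7 (h9 _ (by simp))
    simp only [Multiset.map_singleton, Multiset.sum_singleton, natDegree_pow, hm] at h0
    have : m ≤ 3 := by nlinarith
    obtain ⟨rfl, rfl⟩ | ⟨rfl, rfl⟩ : k = 3 ∧ m = 1 ∨ k = 1 ∧ m = 3 := by interval_cases m <;> omega
    · exact inK_two hE p1 p2 hm h10
    · exact (pow_one p).symm ▸ inK_six hE p1 p2 hm (dvd_of_dual p1 h6 h7 h8 hm)
  · have h6 := h4 (b := b) (by simp)
    have h7 : b.natDegree = 3 := by simp [natDegree_dual h6] at h0; omega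
    refine ⟨?_, .inr (by simp [natDegree_dual h6, h7])⟩
    obtain ⟨p, k, p1, p2, p3, rfl⟩ := h3 (b := b) (by simp)
    rw [natDegree_pow] at h7
    obtain ⟨rfl, h8⟩ | ⟨rfl, h8⟩ : k = 3 ∧ p.natDegree = 1 ∨ k = 1 ∧ p.natDegree = 3 := by
      have : k ≤ 3 := by have := p1.natDegree_pos; nlinarith
      interval_cases k <;> omega
    · obtain ⟨c, rfl⟩ : ∃ c, p = X - C c := ⟨-p.coeff 0, by simpa using p2.eq_X_add_C h8⟩
      have c0 : c ≠ 0 := by rintro rfl; simp at h6
      rw [dual_pow, dual_X_sub_C c0]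
      exact inK_pair hE c0
    · rw [pow_one] at h6 ⊢
      obtain ⟨t, ht⟩ := exists_root_ext (E := E) p1 (by rw [hE, h8])
      have t0 : t ≠ 0 := by
        rintro rfl
        rw [aeval_def, eval₂_at_zero, map_eq_zero] at ht
        exact h6 ht
      have h9 := aeval_dual (σ := RingHom.id F) (mul_inv_cancel₀ t0) (inv_mul_cancel₀ t0) p
      rw [Polynomial.map_id, ht, smul_zero, mul_eq_zero, or_iff_left (pow_ne_zero _ t0)] at h9
      rw [← elemDiv_sc_root hE p1 p2 h8 ht, ← elemDiv_sc_root hE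
        (irreducible_dual (fun _ => rfl) p1 h6) (monic_dual h6) ((natDegree_dual h6).trans h8) h9]
      exact inK_diag t0 _

omit [Finite E] in
theorem cov_PSp6 : Cov (PSp 3 F) := by
  let E := FiniteField.Extension F 3 3
  have hE : finrank F E = 3 := FiniteField.finrank_extension F 3 3
  have h := isSympSpace_tB (F := F) (E := E)
  have h3 : (3 : F) = 0 := CharP.cast_eq_zero F 3
  have h2 : (2 : F) ≠ 0 := fun e => one_ne_zero (α := F) (by linear_combination h3 - e)
  obtain ⟨e, he⟩ := h.exists_equiv (m := 3) (by simp [hE])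
  let ψ := (spEquiv 3 F).trans (Isom.congr (Q := fun _ => 0) (Q' := fun _ => 0) e he fun _ => rfl).symm
  have : Finite (Isom (tB F E) fun _ => 0) := .of_equiv _ ψ.toEquiv
  have hz : ∀ z ∈ Subgroup.center _, ∃ c : F, ∀ v, (ψ.toMonoidHom z).1 v = c • v := fun z hz => by
    rcases Sp.mem_center_iff.1 hz with rfl | rfl
    · exact ⟨1, by simp⟩
    · exact ⟨-1, fun v => e.symm_apply_eq.2 ((Sp.negOne_smul (e v)).trans (by simp))⟩
  have hr : ∀ x, 1 * x ∈ ψ.toMonoidHom.range := fun x => ψ.surjective _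
  let Q : Isom (tB F E) (fun _ => 0) → Prop := fun g => ∃ φ : E ≃ₐ[F] E, ∀ (a : E) v,
    g.1 (a • v) = φ a • g.1 v
  have hQ : Good ψ.toMonoidHom (Subgroup.center _) Q := by
    refine ⟨⟨AlgEquiv.refl, fun _ _ => rfl⟩, fun a b ⟨φ, h1⟩ ⟨χ, h2⟩ => ⟨χ.trans φ, fun c v => by
      rw [Isom.mul_apply, h2, h1]; rfl⟩, ?_, fun x => ⟨1, ⟨AlgEquiv.refl, fun _ _ => rfl⟩, hr x⟩,
      fun z h => ?_⟩
    · let r : End F (E × E) := 1 + LinearMap.inl F E E ∘ₗ Algebra.linearMap F E ∘ₗ
        Algebra.trace F E ∘ₗ LinearMap.snd F E E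
      have h1 : Pres (tB F E) (fun _ => 0) r := ⟨fun v w => by
        simp [r, tB_apply, ← Algebra.smul_def, mul_comm v.2, mul_comm (Algebra.trace F E v.2), add_mul]
        ring,
        fun _ => rfl⟩
      refine ⟨h1.toIsom h.nd, fun ⟨φ, h4⟩ => ?_⟩
      replace h4 : ∀ (a : E) v, r (a • v) = φ a • r v := h4
      obtain ⟨a, ha⟩ := Algebra.trace_surjective F E 1
      have h5 := congrArg Prod.fst (h4 a (0, 1))
      have h6 : Algebra.trace F E 1 = 0 := by
        rw [← map_one (algebraMap F E), Algebra.trace_algebraMap, hE]; simpa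
      simp [r, ha, h6] at h5
    · obtain ⟨c, hc⟩ := hz z h
      exact ⟨AlgEquiv.refl, fun a v => by rw [hc, hc, smul_comm]; rfl⟩
  have key : ∀ g : Isom (tB F E) fun _ => 0, ¬ Dec (tB F E) g.1.toLinearMap 2 →
      ∃ x, Q (x * g * x⁻¹) := fun g hd => by
    obtain ⟨⟨a, b, c, d, φ, h4, h5⟩, h6⟩ := inK_of_not_dec hE g.2.1 hd
    obtain ⟨z, z0, y, y1, -, y2⟩ := exists_isoSim_smul h2 h h g.2.1 (sl_pres h4 φ) h5.symm
      (h6.imp_right fun h7 c i _ hi h8 => by
        have := h7 _ h8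
        rw [natDegree_pow, natDegree_X_sub_C, mul_one] at this
        exact absurd (this ▸ hi) (by decide))
    let δ : (E × E) ≃ₗ[E] E × E := (LinearEquiv.smulOfNeZero E E (algebraMap F E z)
      (by simpa)).prodCongr (LinearEquiv.refl E E)
    let x : Isom (tB F E) fun _ => 0 := ⟨y.trans (δ.restrictScalars F), fun u v => by
      rw [← y1 u v]
      simp [δ, tB_apply, ← Algebra.smul_def, mul_sub], fun _ => rfl⟩
    have h7 : ∀ v, (x * g * x⁻¹).1 v = δ (sl a b c d φ (δ.symm v)) := fun v => by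
      obtain ⟨v, rfl⟩ := x.1.surjective v
      rw [← Isom.mul_apply, inv_mul_cancel_right]
      exact congrArg δ ((y2 v).trans (congrArg _ (δ.symm_apply_apply _).symm))
    exact ⟨x, φ, fun t v => by rw [h7, h7, map_smul, sl_smul, map_smul]⟩
  by_cases h1 : ∃ W : Submodule F (E × E), finrank F W = 2 ∧ W ⊓ perp (tB F E) W = ⊥
  swap
  · exact cov_of hQ hQ fun g => (key _ fun ⟨W, h4, h5, _⟩ => h1 ⟨W, h4, h5⟩).imp fun x => .inl
  obtain ⟨W, h1, h4⟩ := h1
  refine cov_of (P := fun g => ∀ v ∈ W, g.1 v ∈ W) ⟨fun _ => id, fun a b ha hb v hv => ha _ (hb v hv),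
    ?_, fun x => ⟨1, fun _ => id, hr x⟩, fun z h v hv => ?_⟩ hQ fun g => ?_
  · obtain ⟨u, u1, u2⟩ := Submodule.exists_mem_ne_zero_of_ne_bot (p := W) (by rintro rfl; simp at h1)
    obtain ⟨v, hv⟩ : ∃ v, v ∉ W := by
      by_contra! h5
      rw [Submodule.eq_top_iff'.2 h5] at h1
      simp [hE] at h1
    obtain ⟨g, g1, g2, g3⟩ := h.witt_vector u2 (v := v) (by rintro rfl; simp at hv) rfl
    exact ⟨⟨g, g1, g2⟩, fun h5 => hv (g3 ▸ h5 u u1)⟩
  · obtain ⟨c, hc⟩ := hz z h
    exact (hc v).symm ▸ W.smul_mem c hv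
  by_cases hd : Dec (tB F E) (ψ.toMonoidHom g).1.toLinearMap 2
  swap
  · exact (key _ hd).imp fun x => .inr
  obtain ⟨W', h5, h6, h7⟩ := hd
  obtain ⟨y, y1, -⟩ := IsSympSpace.isometric (h.restrict h6) (h.restrict h4) (h5.trans h1.symm)
  obtain ⟨x, x1, x2, x3⟩ := h.witt_inj W' (W.subtype ∘ₗ y.toLinearMap)
    (W.injective_subtype.comp y.injective) y1 fun _ => rfl
  refine ⟨⟨x, x1, x2⟩, .inl fun v hv => ?_⟩
  obtain ⟨w, hw⟩ := y.surjective ⟨v, hv⟩
  obtain rfl : x w = v := (x3 w).trans (congrArg Subtype.val hw)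
  change x ((ψ g).1 (x.symm (x w))) ∈ W
  rw [x.symm_apply_apply]
  exact (x3 ⟨_, h7 w w.2⟩).symm ▸ (y _).2

end Cfsg.Agent.Class.Cover
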