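import Cfsg.Agent.Class.Cover.UForm
import Cfsg.Agent.Class.Wall.SpOdd
import Cfsg.Agent.Class.Wall.Jordan
import Cfsg.Agent.Class.FG.SelfDual

/-! Orthogonally indecomposable elements of `Sp_6(q)`, `q` odd. -/

set_option autoImplicit false

namespace Cfsg.Agent.Class.Cover

open Polynomial Module Cfsg.Agent.KSG Cfsg.Agent.Class.Wall

variable {F V V' : Type*} [Field F] [AddCommGroup V] [Module F V] [FiniteDimensional F V]
  [AddCommGroup V'] [Module F V'] [FiniteDimensional F V']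
  {B : LinearMap.BilinForm F V} {g : End F V} {B' : LinearMap.BilinForm F V'} {g' : End F V'}

/-- `g` has an invariant non-degenerate subspace of dimension `k`. -/
def Dec (B : LinearMap.BilinForm F V) (g : End F V) (k : ℕ) : Prop :=
  ∃ W : Submodule F V, finrank F W = k ∧ W ⊓ perp B W = ⊥ ∧ ∀ v ∈ W, g v ∈ W

omit [FiniteDimensional F V] in
theorem dec_pair (h : IsSympSpace B) {u v : V} (h1 : B u v ≠ 0)
    (h2 : g u ∈ Submodule.span F {u, v}) (h3 : g v ∈ Submodule.span F {u, v}) : Dec B g 2 := by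
  refine ⟨_, finrank_pair (w := u) (u := v) (by rintro rfl; simp at h1)
    (by rintro c rfl; simp [h.isAlt u] at h1), h.inf_perp_eq_bot fun x hx h4 => ?_, fun x hx => ?_⟩
  · obtain ⟨a, b, rfl⟩ := Submodule.mem_span_pair.1 hx
    have h5 := h4 u (Submodule.subset_span (by simp))
    have h6 := h4 v (Submodule.subset_span (by simp))
    simp [h.isAlt u, h.isAlt v, h1, h.symm u v] at h5 h6
    simp [h5, h6]
  · obtain ⟨a, b, rfl⟩ := Submodule.mem_span_pair.1 hx
    rw [map_add, map_smul, map_smul]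
    exact add_mem (Submodule.smul_mem _ _ h2) (Submodule.smul_mem _ _ h3)

theorem dec_of_small (h2 : (2 : F) ≠ 0) (h : IsSympSpace B) (hg : ∀ x y, B (g x) (g y) = B x y)
    {c : F} (hc : c * c = 1) {e : ℕ} (he : e < 3) (hm : (X - C c) ^ e ∈ elemDiv g) : Dec B g 2 := by
  classical
  have h0 := h.herm.herm_layB (smul_pres hg hc) e
  have : Nontrivial (Lay (c • g - 1) e) := nontrivial_of_finrank_pos (R := F) (by
    rw [finrank_lay_eq_count' g hc]; exact Multiset.count_pos.2 hm)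
  obtain ⟨x, hx⟩ := exists_ne (0 : Lay (c • g - 1) e)
  obtain ⟨y, hy⟩ := not_forall.1 (mt (h0.left x) hx)
  have h3 : ∀ v, g v = c • ((c • g - 1) v + v) := fun v => by simp [smul_smul, hc]
  have h4 : ∀ u v : V, u ∈ Submodule.span F {u, v} ∧ v ∈ Submodule.span F {u, v} := fun u v =>
    ⟨Submodule.subset_span (by simp), Submodule.subset_span (by simp)⟩
  obtain rfl | rfl | rfl : e = 0 ∨ e = 1 ∨ e = 2 := by omega
  · exact absurd hm (one_notMem_elemDiv g c)
  · obtain ⟨⟨u, hu⟩, rfl⟩ := layMk_surjective _ _ x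
    obtain ⟨⟨v, hv⟩, rfl⟩ := layMk_surjective _ _ y
    rw [pow_one, LinearMap.mem_ker] at hu hv
    refine dec_pair h (u := u) (v := v) hy ?_ ?_
    · rw [h3, hu, zero_add]; exact Submodule.smul_mem _ _ (h4 u v).1
    · rw [h3, hv, zero_add]; exact Submodule.smul_mem _ _ (h4 u v).2
  · obtain ⟨z, hz⟩ : ∃ z, layB (smul_pres hg hc) 2 z z ≠ 0 := by
      by_contra! h5
      have := h5 (x + y)
      simp only [map_add, LinearMap.add_apply, h5, h0.symm x y] at this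
      exact hy ((mul_eq_zero.1 (show (2 : F) * _ = 0 by simpa [two_mul] using this)).resolve_left h2)
    obtain ⟨⟨u, hu⟩, rfl⟩ := layMk_surjective _ _ z
    rw [sq, LinearMap.mem_ker, End.mul_apply] at hu
    refine dec_pair h (u := (c • g - 1) u) (v := u) (by rwa [layB_mk, show 2 - 1 = 1 from rfl, pow_one] at hz) ?_ ?_
    · rw [h3, hu, zero_add]; exact Submodule.smul_mem _ _ (h4 _ _).1
    · rw [h3]; exact Submodule.smul_mem _ _ (add_mem (h4 _ _).1 (h4 _ _).2)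

theorem Dec.two (h : IsSympSpace B) (hg : ∀ x y, B (g x) (g y) = B x y) (hV : finrank F V = 6) {k : ℕ}
    (hd : Dec B g k) (h0 : k ≠ 0) (h6 : k ≠ 6) : Dec B g 2 := by
  obtain ⟨W, rfl, h1, h2⟩ := hd
  have h3 := IsSympSpace.even_finrank (h.restrict h1)
  have h4 := h.finrank_add_finrank_perp W
  obtain h5 | h5 : finrank F W = 2 ∨ finrank F (perp B W) = 2 := by rw [Nat.even_iff] at h3; omega
  exacts [⟨W, h5, h1, h2⟩, ⟨_, h5, h.perp_inf_perp_perp h1,
    (show Pres B (fun _ => 0) g from ⟨hg, fun _ => rfl⟩).perp_mem h.nd h2⟩]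

variable [Finite F]

theorem dec_of_add (h : IsSympSpace B) (hg : ∀ x y, B (g x) (g y) = B x y) {s t : Multiset F[X]}
    (hc : ∀ b ∈ elemDiv g, IsCoprime (X ^ 2 - 1) b) (e : elemDiv g = s + t)
    (hs : s.map (dual (RingHom.id F)) = s) : Dec B g (s.map natDegree).sum := by
  have hP : Pres B (fun _ => 0) g := ⟨hg, fun _ => rfl⟩
  have h1 := h.nd.map_dual_elemDiv hg
  have h2 := @isPP_of_mem_elemDiv _ _ _ _ _ _ g
  have h3 := (isUnit_iff_elemDiv g).1 (hP.isUnit h.nd)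
  have hu : IsUnit (g * g - 1) := by simpa [sq] using (isUnit_aeval_iff_elemDiv g _).2 hc
  simp only [e, Multiset.mem_add, or_imp, forall_and, Multiset.map_add, hs, add_right_inj] at hc h1 h2 h3
  obtain ⟨n, B₁, Q₁, g₁, k1, k2, rfl⟩ := fType_sp.real_of_coprime h2.1 h3.1 hs hc.1
  obtain ⟨m, B₂, Q₂, g₂, l1, l2, rfl⟩ := fType_sp.real_of_coprime h2.2 h3.2 h1 hc.2
  obtain ⟨y, y1, -, y2⟩ := (h.isoSim_of_isUnit (k1.prod l1).isSympSpace hP
    ⟨(k2.prod l2).map_B, fun _ => rfl⟩ (sim_of_elemDiv_eq (e.trans (elemDiv_prodMap _ _).symm)) hu).symm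
  refine ⟨LinearMap.range (y.toLinearMap ∘ₗ LinearMap.inl F _ _), ?_, h.inf_perp_eq_bot ?_, ?_⟩
  · rw [← finrank_eq_sum_elemDiv g₁]
    exact LinearMap.finrank_range_of_inj (y.injective.comp LinearMap.inl_injective)
  · rintro _ ⟨x, rfl⟩ hx
    rw [k1.left x fun z => by simpa [y1] using hx _ ⟨z, rfl⟩, map_zero]
  · rintro _ ⟨x, rfl⟩
    exact ⟨g₁ x, by simp [← y2]⟩

theorem sp6 (h2 : (2 : F) ≠ 0) (h : IsSympSpace B) (hg : ∀ x y, B (g x) (g y) = B x y)
    (hV : finrank F V = 6) (hd : ¬ Dec B g 2) :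
    (∃ c, c * c = 1 ∧ (elemDiv g = {(X - C c) ^ 6} ∨ elemDiv g = {(X - C c) ^ 3} + {(X - C c) ^ 3})) ∨
    ∃ b, IsCoprime (X ^ 2 - 1) b ∧ (elemDiv g = {b} ∨
      dual (RingHom.id F) b ≠ b ∧ elemDiv g = {b} + {dual (RingHom.id F) b}) := by
  have hP : Pres B (fun _ => 0) g := ⟨hg, fun _ => rfl⟩
  have h0 := finrank_eq_sum_elemDiv g
  have h1 : ∀ k, Dec B g k → k ≠ 0 → k = 6 := fun k hk h1 => by_contra fun h2 =>
    hd (hk.two h hg hV h1 h2)
  by_cases hc : ∀ b ∈ elemDiv g, IsCoprime (X ^ 2 - 1) b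
  · obtain ⟨p, e, p1, p2, p3, p4⟩ := exists_mem_elemDiv (by omega) g
    generalize p ^ e = b at p4
    have h3 := isPP_of_mem_elemDiv p4
    have h4 := coeff_zero_ne_of_mem_elemDiv (hP.isUnit h.nd) p4
    have h5 := h3.natDegree_pos
    have key : ∀ s, s ≤ elemDiv g → b ∈ s → s.map (dual (RingHom.id F)) = s → elemDiv g = s :=
      fun s hs h6 h7 => by
        obtain ⟨t, ht⟩ := Multiset.le_iff_exists_add.1 hs
        have h8 := h1 _ (dec_of_add h hg hc ht h7) fun e => h5.ne'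
          (Multiset.sum_eq_zero_iff.1 e _ (Multiset.mem_map_of_mem _ h6))
        rw [ht, Multiset.map_add, Multiset.sum_add, hV, h8, left_eq_add, Multiset.sum_eq_zero_iff] at h0
        rw [ht, Multiset.eq_zero_of_forall_notMem (s := t) fun a ha => (isPP_of_mem_elemDiv
          (ht ▸ Multiset.mem_add.2 (.inr ha))).natDegree_pos.ne' (h0 _ (Multiset.mem_map_of_mem _ ha)),
          add_zero]
    refine .inr ⟨b, hc b p4, ?_⟩
    by_cases h6 : dual (RingHom.id F) b = b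
    · exact .inl (key _ (Multiset.singleton_le.2 p4) (by simp) (by simpa))
    refine .inr ⟨h6, key _ ?_ (by simp) ?_⟩
    · refine (Multiset.le_iff_subset (by simpa using Ne.symm h6)).2 fun a ha => ?_
      simp only [Multiset.mem_add, Multiset.mem_singleton] at ha
      rcases ha with rfl | rfl
      exacts [p4, h.nd.map_dual_elemDiv hg ▸ Multiset.mem_map_of_mem _ p4]
    · rw [Multiset.map_add, Multiset.map_singleton, Multiset.map_singleton,
        dual_dual (σ := RingHom.id F) (fun _ => rfl) h3.monic h4, add_comm]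
  push Not at hc
  obtain ⟨b, hb, h3⟩ := hc
  obtain ⟨c, e, hc, he, rfl⟩ := (IsPP.coprime_or (isPP_of_mem_elemDiv hb)).resolve_left h3
  have h4 := h1 _ ⟨_, rfl, hP.inf_perp_ker h hc (fit_pow_finrank g (X - C c) hV.le),
    mem_ker_aeval g _⟩ fun h4 => by
      obtain ⟨v, v1, v2⟩ := exists_ker_of_mem (irreducible_X_sub_C c) (Nat.pos_of_ne_zero he) hb
      refine v1 ((Submodule.mem_bot F).1 ((Submodule.finrank_eq_zero.1 h4).le ?_))
      rw [LinearMap.mem_ker, pow_succ, map_mul, End.mul_apply, v2, map_zero]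
  have h5 : ∀ b ∈ elemDiv g, ∃ e, 3 ≤ e ∧ b = (X - C c) ^ e := fun b hb => by
    obtain ⟨e, -, -, rfl⟩ := (isPP_of_mem_elemDiv hb).eq_pow_of_dvd_pow (irreducible_X_sub_C c)
      (monic_X_sub_C c) ((aeval_eq_zero_iff_elemDiv g _).1
        (LinearMap.ker_eq_top.1 (Submodule.eq_top_of_finrank_eq (h4.trans hV.symm))) b hb)
    exact ⟨e, not_lt.1 fun h6 => hd (dec_of_small h2 h hg hc h6 hb), rfl⟩
  refine .inl ⟨c, hc, ?_⟩
  have hdeg : ∀ e : ℕ, ((X - C c) ^ e).natDegree = e := fun e => by simp [natDegree_pow]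
  obtain ⟨t, ht⟩ := Multiset.exists_cons_of_mem hb
  rw [ht] at h0 h5 ⊢
  obtain ⟨e', h6, h7⟩ := h5 _ (Multiset.mem_cons_self _ _)
  obtain rfl : e = e' := by simpa [hdeg] using congrArg natDegree h7
  rcases t.empty_or_exists_mem with rfl | ⟨b, hb⟩
  · simp [hV, hdeg] at h0
    simp [← h0]
  obtain ⟨t, rfl⟩ := Multiset.exists_cons_of_mem hb
  obtain ⟨e', h8, rfl⟩ := h5 b (by simp)
  rcases t.empty_or_exists_mem with rfl | ⟨b, hb⟩
  · simp [hV, hdeg] at h0
    simp [show e = 3 by omega, show e' = 3 by omega]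
  obtain ⟨t, rfl⟩ := Multiset.exists_cons_of_mem hb
  obtain ⟨e'', h9, rfl⟩ := h5 b (by simp)
  simp [hV, hdeg] at h0
  omega

theorem exists_isoSim_smul (h2 : (2 : F) ≠ 0) (h : IsSympSpace B) (h' : IsSympSpace B')
    (hg : ∀ x y, B (g x) (g y) = B x y) (hg' : ∀ x y, B' (g' x) (g' y) = B' x y)
    (he : elemDiv g = elemDiv g') (hs : (∃ b, elemDiv g = {b}) ∨
      ∀ c i, c * c = 1 → Even i → (X - C c) ^ i ∉ elemDiv g) :
    ∃ z : F, z ≠ 0 ∧ IsoSim B (fun _ => 0) g (z • B') (fun _ => 0) g' := by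
  classical
  have key : ∀ z : F, z ≠ 0 → (∀ c i, c * c = 1 → Even i → (X - C c) ^ i ∈ elemDiv g →
      sg B g c i = sg (z • B') g' c i) → IsoSim B (fun _ => 0) g (z • B') (fun _ => 0) g' :=
    fun z hz h1 => h.isoSim_of_sg h2 (by simp) (isFormed_of_isAlt
      ⟨fun x hx => h'.nondeg x (by simpa [hz] using hx),
        fun x hx => h'.nondeg_right x (by simpa [hz] using hx)⟩ fun x => by simp [h'.isAlt x])
      ⟨hg, fun _ => rfl⟩ ⟨by simp [hg'], fun _ => rfl⟩ (sim_of_elemDiv_eq he) fun c i hc hi => by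
        by_cases h3 : (X - C c) ^ i ∈ elemDiv g
        · exact h1 c i hc ((neg_one_pow_mul_neg_one h2 (by
            rintro rfl; exact one_notMem_elemDiv g c h3)).1 hi) h3
        · rw [sg_eq_one hc h3, sg_eq_one hc (he ▸ h3)]
  by_cases h1 : ∀ c i, c * c = 1 → Even i → (X - C c) ^ i ∉ elemDiv g
  · exact ⟨1, one_ne_zero, key 1 one_ne_zero fun c i hc hi h3 => absurd h3 (h1 c i hc hi)⟩
  obtain ⟨b, hb⟩ := hs.resolve_right h1
  push Not at h1
  obtain ⟨c, i, hc, -, h3⟩ := h1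
  obtain ⟨z, hz, h4⟩ := Orth.sqClass_surjective (sg B g c i / sg B' g' c i)
  refine ⟨z, hz, key z hz fun c' i' _ _ h5 => ?_⟩
  obtain ⟨rfl, rfl⟩ := X_sub_C_pow_inj (by rintro rfl; exact one_notMem_elemDiv g c h3)
    ((Multiset.mem_singleton.1 (hb ▸ h3)).trans (Multiset.mem_singleton.1 (hb ▸ h5)).symm)
  rw [hb, Multiset.mem_singleton] at h3
  rw [h'.herm.sg_smul hg' hc hz, h4, ← he, hb, h3]
  simp

theorem dvd_of_dual {p : F[X]} (hp : Irreducible p) (h0 : p.coeff 0 ≠ 0)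
    (hd : dual (RingHom.id F) p = p) (h1 : IsCoprime (X ^ 2 - 1) p) {m : ℕ}
    (hm : p.natDegree = 2 * m) : p ∣ X ^ (Nat.card F ^ m + 1) - 1 := by
  have := Fintype.ofFinite F
  have := Fact.mk hp
  set z := AdjoinRoot.root p with hz
  have h1' : ∀ f, aeval z f = 0 ↔ p ∣ f := fun f => by
    rw [hz, AdjoinRoot.aeval_eq, AdjoinRoot.mk_eq_zero]
  have z0 : z ≠ 0 := fun e => by
    have := (h1' p).2 dvd_rfl
    rw [e, aeval_def, eval₂_at_zero, map_eq_zero] at this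
    exact h0 this
  have h6 := aeval_dual (σ := RingHom.id F) (mul_inv_cancel₀ z0) (inv_mul_cancel₀ z0) p
  rw [Polynomial.map_id, (h1' p).2 dvd_rfl, smul_zero, hd] at h6
  obtain ⟨k, hk⟩ := (aeval_root_eq_zero_iff hp _).1
    ((mul_eq_zero.1 h6).resolve_right (pow_ne_zero _ z0))
  rw [← hz, ← Nat.card_eq_fintype_card] at hk
  have h7 : ∀ n, 2 * m ∣ n ↔ z ^ Nat.card F ^ n = z := fun n => by
    rw [← hm, hp.natDegree_dvd_iff_dvd_X_pow_card_pow_sub_X, ← h1']
    simp [sub_eq_zero]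
  obtain ⟨j, rfl⟩ := Nat.dvd_of_mul_dvd_mul_left two_pos ((h7 (2 * k)).2 (by
    rw [two_mul, pow_add, pow_mul, ← hk, inv_pow, ← hk, inv_inv]))
  obtain ⟨i, rfl | rfl⟩ := j.even_or_odd'
  · rw [(h7 _).1 ⟨i, by ring⟩, inv_eq_iff_eq_inv, ← mul_eq_one_iff_eq_inv₀ z0] at hk
    exact absurd (h1.isUnit_of_dvd' ((h1' _).1 (by simp [sq, hk])) dvd_rfl) hp.not_isUnit
  · rw [show m * (2 * i + 1) = 2 * m * i + m by ring, pow_add, pow_mul, (h7 _).1 ⟨i, rfl⟩] at hk
    exact (h1' _).1 (by simp only [map_sub, map_pow, aeval_X, pow_succ z, ← hk]; simp [z0])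

end Cfsg.Agent.Class.Cover
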