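import Cfsg.Agent.Class.Cover.Basic
import Cfsg.Agent.Class.Wall.PrimeCount

/-! Invariant subspaces of isometries of hermitian spaces of dimension three and four. -/

set_option autoImplicit false

namespace Cfsg.Agent.Class.Cover

open Polynomial Module Cfsg.Agent.KSG Cfsg.Agent.Class.Wall

variable {F V : Type*} [Field F] [AddCommGroup V] [Module F V] [FiniteDimensional F V]
  {σ : F →+* F} {g : End F V}

theorem form_eq_zero_of_coprime {B : V →ₛₗ[σ] V →ₗ[F] F} (h : Nd σ B)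
    (hg : ∀ x y, B (g x) (g y) = B x y) {a b : F[X]} (hm : a.Monic) (h0 : a.coeff 0 ≠ 0)
    (hc : IsCoprime (dual σ a) b) {x y : V} (hx : aeval g a x = 0) (hy : aeval g b y = 0) :
    B x y = 0 := by
  obtain ⟨s, t, e⟩ := hc
  have h1 : aeval g (dual σ a) (aeval g s y) = y := by
    have := congrArg (fun r => aeval g r y) e
    simpa [mul_comm s, hy] using this
  have h2 := ker_aeval_map_eq (σ := σ) (mul_eq_one_comm.1 (h.adj_mul_eq_one_iff.2 hg))
    (coeff_zero_dual_ne (σ := σ) h0)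
  rw [dual_dual h.invol hm h0] at h2
  rw [← h1, ← h.adj_apply, h.adj_aeval, LinearMap.mem_ker.1 (h2.ge hx)]
  simp

theorem exists_ker_of_mem {p : F[X]} (hp : Irreducible p) {e : ℕ} (he : 0 < e)
    (h : p ^ e ∈ elemDiv g) : ∃ v, v ≠ 0 ∧ aeval g p v = 0 := by
  by_contra! h1
  have h2 : IsUnit (aeval g p) := (LinearMap.isUnit_iff_ker_eq_bot _).2
    (LinearMap.ker_eq_bot'.2 fun v hv => by_contra fun e => h1 v e hv)
  exact hp.not_isUnit (((isUnit_aeval_iff_elemDiv g p).1 h2 _ h).isUnit_of_dvd (dvd_pow_self p he.ne'))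

theorem exists_mem_elemDiv (h : finrank F V ≠ 0) (g : End F V) :
    ∃ (p : F[X]) (e : ℕ), Irreducible p ∧ p.Monic ∧ 0 < e ∧ p ^ e ∈ elemDiv g := by
  obtain ⟨b, hb⟩ := Multiset.exists_mem_of_ne_zero (s := elemDiv g) fun e => by
    simp [finrank_eq_sum_elemDiv g, e] at h
  obtain ⟨p, e, h1, h2, h3, rfl⟩ := isPP_of_mem_elemDiv hb
  exact ⟨p, e, h1, h2, h3, hb⟩

theorem natDegree_le_of_mem {b : F[X]} (hb : b ∈ elemDiv g) : b.natDegree ≤ finrank F V := by
  rw [finrank_eq_sum_elemDiv g]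
  exact Multiset.single_le_sum (fun _ _ => Nat.zero_le _) _ (Multiset.mem_map_of_mem _ hb)

omit [FiniteDimensional F V] in
theorem aeval_of_natDegree_one {p : F[X]} (hm : p.Monic) (h : p.natDegree = 1) (v : V) :
    aeval g p v = g v - (-p.coeff 0) • v := by
  conv_lhs => rw [hm.eq_X_add_C h]
  simp

omit [FiniteDimensional F V] in
theorem aeval_eigen {v : V} {c : F} (h : g v = c • v) (p : F[X]) : aeval g p v = p.eval c • v :=
  End.aeval_apply_of_mem_apply_eq_smul h

theorem deg_of_no_eigen (h : ∀ v (c : F), g v = c • v → v = 0) {p : F[X]} (hp : Irreducible p)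
    (hm : p.Monic) {e : ℕ} (he : 0 < e) (hb : p ^ e ∈ elemDiv g) : 2 ≤ p.natDegree ∧
      ∃ t, elemDiv g = p ^ e ::ₘ t ∧ (t = 0 ∨ 2 ≤ (t.map natDegree).sum) ∧
        e * p.natDegree + (t.map natDegree).sum = finrank F V := by
  have h1 : ∀ (p : F[X]) (e : ℕ), Irreducible p → p.Monic → 0 < e → p ^ e ∈ elemDiv g →
      2 ≤ p.natDegree := fun p e hp hm he hb => by
    obtain ⟨v, h2, h3⟩ := exists_ker_of_mem hp he hb
    have := hp.natDegree_pos
    by_contra h4
    rw [aeval_of_natDegree_one hm (by omega), sub_eq_zero] at h3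
    exact h2 (h v _ h3)
  obtain ⟨t, ht⟩ := Multiset.exists_cons_of_mem hb
  refine ⟨h1 p e hp hm he hb, t, ht, or_iff_not_imp_left.2 fun h2 => ?_, ?_⟩
  · obtain ⟨b, hb⟩ := Multiset.exists_mem_of_ne_zero h2
    have h6 : b ∈ elemDiv g := ht ▸ Multiset.mem_cons_of_mem hb
    obtain ⟨p', e', q1, q2, q3, rfl⟩ := isPP_of_mem_elemDiv h6
    have h7 := h1 _ _ q1 q2 q3 h6
    have h8 := Multiset.single_le_sum (fun _ _ => Nat.zero_le _) _
      (Multiset.mem_map_of_mem natDegree hb)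
    rw [natDegree_pow] at h8
    nlinarith
  · rw [finrank_eq_sum_elemDiv g, ht, Multiset.map_cons, Multiset.sum_cons, natDegree_pow]

/-- A single Jordan block. -/
theorem elemDiv_of_block {c : F} {k : ℕ} (h0 : finrank F V ≠ 0) (h1 : aeval g ((X - C c) ^ k) = 0)
    (h2 : finrank F (LinearMap.ker (aeval g (X - C c))) ≤ 1) :
    elemDiv g = {(X - C c) ^ finrank F V} := by
  have h3 : ∀ b ∈ elemDiv g, ∃ e, 0 < e ∧ b = (X - C c) ^ e := fun b hb => by
    obtain ⟨e, h4, -, h5⟩ := (isPP_of_mem_elemDiv hb).eq_pow_of_dvd_pow (irreducible_X_sub_C c)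
      (monic_X_sub_C c) ((aeval_eq_zero_iff_elemDiv g _).1 h1 b hb)
    exact ⟨e, h4, h5⟩
  rw [finrank_ker_aeval, Multiset.map_congr rfl (g := fun _ => 1) fun b hb => by
    obtain ⟨e, h4, rfl⟩ := h3 b hb
    rw [gdeg_of_dvd' (dvd_pow_self _ h4.ne'), natDegree_X_sub_C]] at h2
  have h4 := finrank_eq_sum_elemDiv g
  obtain h5 | h5 : (elemDiv g).card = 0 ∨ (elemDiv g).card = 1 := by simp at h2; omega
  · simp [Multiset.card_eq_zero.1 h5, h0] at h4
  obtain ⟨b, hb⟩ := Multiset.card_eq_one.1 h5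
  obtain ⟨e, -, rfl⟩ := h3 b (by simp [hb])
  rw [h4, hb]
  simp [natDegree_pow]

section Unitary

variable {q : ℕ} [U.UF F q]

local notation "𝛔" => U.conj F q

theorem odd_of_dual {p : F[X]} (hp : Irreducible p) (h0 : p.coeff 0 ≠ 0)
    (hd : dual 𝛔 p = p) : Odd p.natDegree ∧ p ∣ X ^ (q ^ p.natDegree + 1) - 1 := by
  have : Finite F := U.UF.finite q
  have := Fintype.ofFinite F
  have hF : Fintype.card F = q ^ 2 := by rw [← Nat.card_eq_fintype_card]; exact U.UF.card_eq
  obtain ⟨r, a, hr, hc, hq, -⟩ := U.exists_prime_pow F q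
  have := Fact.mk hp
  have := Fact.mk hr
  have : CharP (AdjoinRoot p) r := charP_of_injective_algebraMap (algebraMap F _).injective r
  set z := AdjoinRoot.root p with hz
  have h1 : ∀ f, aeval z f = 0 ↔ p ∣ f := fun f => by
    rw [hz, AdjoinRoot.aeval_eq, AdjoinRoot.mk_eq_zero]
  have z0 : z ≠ 0 := fun e => by
    have := (h1 p).2 dvd_rfl
    rw [e, aeval_def, eval₂_at_zero, map_eq_zero] at this
    exact h0 this
  have z1 : z ^ q ≠ 0 := pow_ne_zero _ z0
  have h5 : aeval (z ^ q) (p.map 𝛔) = 0 := by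
    have := map_aeval_eq_aeval_map (φ := 𝛔) (ψ := iterateFrobenius (AdjoinRoot p) r a)
      (RingHom.ext fun x => by simp [U.conj_apply, iterateFrobenius_def, ← hq]) p z
    rw [(h1 p).2 dvd_rfl, map_zero, iterateFrobenius_def, ← hq] at this
    exact this.symm
  have h6 := aeval_dual (σ := 𝛔) (mul_inv_cancel₀ z1) (inv_mul_cancel₀ z1) p
  rw [h5, smul_zero, hd] at h6
  obtain ⟨k, hk⟩ := (aeval_root_eq_zero_iff hp _).1
    ((mul_eq_zero.1 h6).resolve_right (pow_ne_zero _ z1))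
  have h7 : ∀ n, p.natDegree ∣ n ↔ z ^ q ^ (2 * n) = z := fun n => by
    rw [hp.natDegree_dvd_iff_dvd_X_pow_card_pow_sub_X, ← h1, Nat.card_eq_fintype_card, hF, ← pow_mul]
    simp [sub_eq_zero]
  have h8 : ∀ n, z ^ q ^ (2 * (p.natDegree * n)) = z := fun n => (h7 _).1 (dvd_mul_right _ _)
  have hpos := hp.natDegree_pos
  obtain ⟨m, h9, h10⟩ : ∃ m, Odd m ∧ z ^ q ^ m = z⁻¹ := by
    refine ⟨2 * k + (2 * (p.natDegree * 1) - 1), by rw [Nat.odd_iff]; omega, ?_⟩
    rw [pow_add, pow_mul, pow_mul q, ← hF, hz, ← hk, ← hz, inv_pow, ← pow_mul, ← pow_succ',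
      Nat.sub_add_cancel (by omega), h8]
  obtain ⟨j, rfl⟩ := (h7 m).2 (by rw [two_mul, pow_add, pow_mul, h10, inv_pow, h10, inv_inv])
  obtain ⟨h11, i, rfl⟩ := Nat.odd_mul.1 h9
  rw [show p.natDegree * (2 * i + 1) = 2 * (p.natDegree * i) + p.natDegree by ring, pow_add,
    pow_mul, h8] at h10
  exact ⟨h11, (h1 _).1 (by simp [pow_succ, h10, z0])⟩

variable {B : V →ₛₗ[U.conj F q] V →ₗ[F] F}

theorem two_mul_finrank_le (h : IsHermSpace q B) {W : Submodule F V}
    (hW : ∀ x ∈ W, B x x = 0) : (∀ x ∈ W, ∀ y ∈ W, B x y = 0) ∧ 2 * finrank F W ≤ finrank F V := by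
  have h1 := h.B_eq_zero_of_totallySingular (W := W) (fun b hb => by
    by_contra h2
    obtain ⟨t, ht⟩ := U.exists_trace_ne_zero F q
    exact ht (by simpa [h2] using hb (t / b))) hW
  have h2 := h.finrank_add_finrank_perp W
  have h3 := Submodule.finrank_mono (show W ≤ perp B W from fun y hy x hx => h1 x hx y hy)
  exact ⟨h1, by omega⟩

omit [FiniteDimensional F V] in
theorem iso_of_ne (h : IsHermSpace q B) (hi : ∀ v (c : F), g v = c • v → B v v = 0) {w u : V}
    {l a t : F} (hw : g w = l • w) (h1 : B w u = 0) (h2 : g u = a • u + t • w) (h3 : a ≠ l) :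
    B u u = 0 := by
  have := hi (u + (t / (a - l)) • w) a (by
    rw [map_add, map_smul, h2, hw]
    match_scalars
    · ring
    · field_simp [sub_ne_zero.2 h3]; ring)
  simpa [h1, h.refl h1, hi w l hw] using this

/-- An invariant plane through `w` inside an invariant subspace `P`. -/
theorem exists_plane {P : Submodule F V} (hP : ∀ v ∈ P, g v ∈ P) {w : V} {l : F} (hw : g w = l • w)
    (h0 : w ≠ 0) (h1 : w ∈ P) (h2 : 1 < finrank F P) : ∃ (p : F[X]) (u : V), Irreducible p ∧ p.Monic ∧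
      p.natDegree < finrank F P ∧ u ∈ P ∧ (∀ c : F, u ≠ c • w) ∧ ∃ t : F, aeval g p u = t • w := by
  let L : Submodule F P := F ∙ ⟨w, h1⟩
  have h3 : finrank F (P ⧸ L) + 1 = finrank F P := by
    rw [← L.finrank_quotient_add_finrank, finrank_span_singleton (by simpa [Subtype.ext_iff])]
  have h4 : L ≤ L.comap (g.restrict hP) := (Submodule.span_singleton_le_iff_mem _ _).2
    (Submodule.mem_span_singleton.2 ⟨l, Subtype.ext hw.symm⟩)
  obtain ⟨p, e, p1, p2, p3, p4⟩ := exists_mem_elemDiv (by omega) (L.mapQ L (g.restrict hP) h4)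
  obtain ⟨v, v1, v2⟩ := exists_ker_of_mem p1 p3 p4
  obtain ⟨u, rfl⟩ := L.mkQ_surjective v
  have h5 := natDegree_le_of_mem p4
  rw [natDegree_pow] at h5
  rw [← aeval_comm_of_comm (f := g.restrict hP) L.mkQ (fun _ => rfl), Submodule.mkQ_apply,
    Submodule.Quotient.mk_eq_zero, Submodule.mem_span_singleton] at v2
  obtain ⟨t, ht⟩ := v2
  refine ⟨p, u, p1, p2, by nlinarith, u.2, fun c hc => v1 ?_, t, ?_⟩
  · exact (Submodule.Quotient.mk_eq_zero _).2 (Submodule.mem_span_singleton.2 ⟨c, Subtype.ext hc.symm⟩)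
  · rw [← aeval_restrict_apply hP, ← ht]; rfl

theorem exists_plane' {P : Submodule F V} (hP : ∀ v ∈ P, g v ∈ P) {w : V} {l : F} (hw : g w = l • w)
    (h0 : w ≠ 0) (h1 : w ∈ P) (h2 : finrank F P = 2) :
    ∃ u ∈ P, (∀ c : F, u ≠ c • w) ∧ ∃ a t : F, g u = a • u + t • w := by
  obtain ⟨p, u, p1, p2, p3, p4, p5, t, ht⟩ := exists_plane hP hw h0 h1 (by omega)
  have := p1.natDegree_pos
  rw [aeval_of_natDegree_one p2 (by omega), sub_eq_iff_eq_add'] at ht
  exact ⟨u, p4, p5, _, _, ht⟩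

omit [FiniteDimensional F V] in
theorem finrank_pair {w u : V} (h0 : w ≠ 0) (h1 : ∀ c : F, u ≠ c • w) :
    finrank F (Submodule.span F {w, u}) = 2 := by
  have := finrank_span_eq_card (R := F) (b := ![w, u])
    ((LinearIndependent.pair_iff' h0).2 fun c => (h1 c).symm)
  rwa [Matrix.range_cons_cons_empty] at this

omit [FiniteDimensional F V] in
theorem pair_inv {w u : V} {l a t : F} (hw : g w = l • w) (hu : g u = a • u + t • w) :
    ∀ v ∈ Submodule.span F {w, u}, g v ∈ Submodule.span F {w, u} := fun v hv => by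
  obtain ⟨x, y, rfl⟩ := Submodule.mem_span_pair.1 hv
  exact Submodule.mem_span_pair.2 ⟨x * l + y * t, y * a, by
    rw [map_add, map_smul, map_smul, hw, hu]; module⟩

theorem u4 (h : IsHermSpace q B) (hg : ∀ x y, B (g x) (g y) = B x y) (hV : finrank F V = 4)
    (hi : ∀ v (c : F), g v = c • v → B v v = 0) : ∃ W : Submodule F V, finrank F W = 2 ∧
      (∀ x ∈ W, B x x = 0) ∧ ∀ v ∈ W, g v ∈ W := by
  have hP : Pres B (fun x => B x x) g := ⟨hg, fun x => hg x x⟩
  have hA : ∀ (p : F[X]) (x : V), Irreducible p → p.Monic → Even p.natDegree → x ≠ 0 →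
      aeval g p x = 0 → ∃ W : Submodule F V, finrank F W = 2 ∧
      (∀ x ∈ W, B x x = 0) ∧ ∀ v ∈ W, g v ∈ W := fun p x p1 p2 p3 x1 x2 => by
    have h1 : ∀ c, p.eval c ≠ 0 := fun c hc => by
      have := natDegree_eq_of_degree_eq_some (degree_eq_one_of_irreducible_of_root p1 hc)
      rw [this] at p3
      exact absurd p3 (by decide)
    have h0 : p.coeff 0 ≠ 0 := by simpa [coeff_zero_eq_eval_zero] using h1 0
    have h2 : ∀ x ∈ LinearMap.ker (aeval g p), B x x = 0 := fun x hx =>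
      form_eq_zero_of_coprime h.nd hg p2 h0 (isCoprime_of_monic_irreducible_ne
        (irreducible_dual U.conj_conj p1 h0) (monic_dual h0) p1 p2 fun e =>
          Nat.not_even_iff_odd.2 (odd_of_dual p1 h0 e).1 p3) hx hx
    have h3 := (two_mul_finrank_le h h2).2
    refine ⟨_, by_contra fun h4 => ?_, h2, mem_ker_aeval g p⟩
    obtain ⟨c, hc⟩ := (finrank_eq_one_iff_of_nonzero' (⟨x, x2⟩ : LinearMap.ker (aeval g p))
      (by simpa [Subtype.ext_iff])).1 (by
        have := (Submodule.finrank_eq_zero (S := LinearMap.ker (aeval g p))).not.2 fun e =>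
          x1 ((Submodule.mem_bot F).1 (e.le x2))
        change finrank F (LinearMap.ker (aeval g p)) = 1
        omega) ⟨g x, mem_ker_aeval g p x x2⟩
    rw [aeval_eigen (congrArg Subtype.val hc).symm] at x2
    exact x1 ((smul_eq_zero.1 x2).resolve_left (h1 c))
  by_cases h1 : ∀ v (c : F), g v = c • v → v = 0
  · obtain ⟨p, e, p1, p2, p3, p4⟩ := exists_mem_elemDiv (by omega) g
    obtain ⟨x, x1, x2⟩ := exists_ker_of_mem p1 p3 p4
    obtain ⟨h2, t, -, h3, h4⟩ := deg_of_no_eigen h1 p1 p2 p3 p4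
    refine hA p x p1 p2 ?_ x1 x2
    have : p.natDegree ≤ 4 := (Nat.le_mul_of_pos_left _ p3).trans (by omega)
    have : p.natDegree ≠ 3 := fun e => by
      rw [e] at h4
      rcases h3 with rfl | h3
      · simp at h4; omega
      · omega
    rw [Nat.even_iff]; omega
  push Not at h1
  obtain ⟨w, l, hw, h0⟩ := h1
  have hw0 := hi w l hw
  have two : ∀ u (a t : F), (∀ c : F, u ≠ c • w) → B w u = 0 → g u = a • u + t • w →
      (a ≠ l ∨ B u u = 0) → ∃ W : Submodule F V, finrank F W = 2 ∧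
      (∀ x ∈ W, B x x = 0) ∧ ∀ v ∈ W, g v ∈ W := fun u a t h1 h2 h3 h4 => by
    refine ⟨_, finrank_pair h0 h1, fun x hx => ?_, pair_inv hw h3⟩
    obtain ⟨x, y, rfl⟩ := Submodule.mem_span_pair.1 hx
    simp [hw0, h2, h.refl h2, h4.elim (iso_of_ne h hi hw h2 h3) id]
  have h1 : ∀ v, v ∈ perp B (F ∙ w) ↔ B w v = 0 := fun v =>
    ⟨fun hv => hv w (Submodule.mem_span_singleton_self w), fun hv x hx => by
      obtain ⟨c, rfl⟩ := Submodule.mem_span_singleton.1 hx
      simp [hv]⟩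
  have h2 := h.finrank_add_finrank_perp (F ∙ w)
  rw [finrank_span_singleton h0] at h2
  obtain ⟨p, u, p1, p2, p3, p4, p5, t, ht⟩ := exists_plane (hP.perp_mem h.nd (W := F ∙ w) fun v hv => by
    obtain ⟨c, rfl⟩ := Submodule.mem_span_singleton.1 hv
    exact Submodule.mem_span_singleton.2 ⟨c * l, by rw [map_smul, hw, mul_smul]⟩) hw h0 ((h1 w).2 hw0)
    (by omega)
  have h3 := p1.natDegree_pos
  rw [h1] at p4
  obtain h4 | h4 : p.natDegree = 2 ∨ p.natDegree = 1 := by omega
  · have h5 : p.eval l ≠ 0 := fun hc => by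
      have : p.natDegree = 1 :=
        natDegree_eq_of_degree_eq_some (degree_eq_one_of_irreducible_of_root p1 hc)
      omega
    refine hA p (u - (t / p.eval l) • w) p1 p2 (by simp [h4]) (sub_ne_zero.2 (p5 _)) ?_
    rw [map_sub, map_smul, ht, aeval_eigen hw, smul_smul, div_mul_cancel₀ _ h5, sub_self]
  rw [aeval_of_natDegree_one p2 h4, sub_eq_iff_eq_add'] at ht
  by_contra hc
  obtain ⟨h5, h6⟩ := not_or.1 (mt (two u _ _ p5 p4 ht) hc)
  have h7 := h.finrank_add_finrank_perp (Submodule.span F {w, u})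
  rw [finrank_pair h0 p5] at h7
  obtain ⟨u', q1, q2, a, t', q3⟩ := exists_plane' (hP.perp_mem h.nd (pair_inv hw ht)) hw h0
    (fun x hx => by
      obtain ⟨x, y, rfl⟩ := Submodule.mem_span_pair.1 hx
      simp [hw0, h.refl p4]) (by omega)
  have q4 : B w u' = 0 := q1 w (Submodule.subset_span (by simp))
  have q5 : B u u' = 0 := q1 u (Submodule.subset_span (by simp))
  obtain ⟨h8, h9⟩ := not_or.1 (mt (two u' _ _ q2 q4 q3) hc)
  obtain ⟨c, h10⟩ := U.exists_norm_eq (q := q) (μ := -B u u / B u' u') (by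
    rw [map_div₀, map_neg, h.isSymm.eq, h.isSymm.eq])
  refine hc (two (u + c • u') l (t + c * t') (fun d e => h6 ?_) (by simp [p4, q4]) ?_ (.inr ?_))
  · simpa [q5, h.refl p4] using congrArg (B u) e
  · rw [map_add, map_smul, ht, q3, not_not.1 h5, not_not.1 h8]; module
  · simp only [map_add, map_smulₛₗ, LinearMap.add_apply, LinearMap.smul_apply, q5, h.refl q5,
      smul_eq_mul, RingHom.id_apply]
    rw [eq_div_iff h9] at h10
    linear_combination h10

theorem u3 (h : IsHermSpace q B) (hg : ∀ x y, B (g x) (g y) = B x y) (hV : finrank F V = 3)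
    (hi : ∀ v (c : F), g v = c • v → B v v = 0) :
    (∃ p, Irreducible p ∧ elemDiv g = {p}) ∨ ∃ c, elemDiv g = {(X - C c) ^ 3} := by
  have hP : Pres B (fun x => B x x) g := ⟨hg, fun x => hg x x⟩
  by_cases h1 : ∀ v (c : F), g v = c • v → v = 0
  · obtain ⟨p, e, p1, p2, p3, p4⟩ := exists_mem_elemDiv (by omega) g
    obtain ⟨h2, t, h5, h3, h4⟩ := deg_of_no_eigen h1 p1 p2 p3 p4
    obtain rfl : e = 1 := by
      have := Nat.mul_le_mul_left e h2
      omega
    exact .inl ⟨p, p1, by rw [h5, h3.resolve_right (by omega), pow_one]; rfl⟩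
  push Not at h1
  obtain ⟨w, l, hw, h0⟩ := h1
  have hw0 := hi w l hw
  have h1 : ∀ v, v ∈ perp B (F ∙ w) ↔ B w v = 0 := fun v =>
    ⟨fun hv => hv w (Submodule.mem_span_singleton_self w), fun hv x hx => by
      obtain ⟨c, rfl⟩ := Submodule.mem_span_singleton.1 hx
      simp [hv]⟩
  have h2 := h.finrank_add_finrank_perp (F ∙ w)
  rw [finrank_span_singleton h0] at h2
  obtain ⟨u, p4, p5, a, t, ht⟩ := exists_plane' (hP.perp_mem h.nd (W := F ∙ w) fun v hv => by
    obtain ⟨c, rfl⟩ := Submodule.mem_span_singleton.1 hv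
    exact Submodule.mem_span_singleton.2 ⟨c * l, by rw [map_smul, hw, mul_smul]⟩) hw h0 ((h1 w).2 hw0)
    (by omega)
  have h3 : Submodule.span F {w, u} = perp B (F ∙ w) := Submodule.eq_of_le_of_finrank_eq
    (Submodule.span_le.2 (by rintro _ (rfl | rfl); exacts [(h1 _).2 hw0, p4]))
    (by rw [finrank_pair h0 p5]; omega)
  rw [h1] at p4
  have h4 : B u u ≠ 0 := fun e => by
    have := (two_mul_finrank_le h (W := Submodule.span F {w, u}) fun x hx => by
      obtain ⟨x, y, rfl⟩ := Submodule.mem_span_pair.1 hx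
      simp [hw0, p4, h.refl p4, e]).2
    rw [finrank_pair h0 p5] at this
    omega
  obtain rfl : a = l := by_contra fun e => h4 (iso_of_ne h hi hw p4 ht e)
  have h5 : a * 𝛔 a = 1 := by
    have := hg u u
    simp only [ht, map_add, map_smulₛₗ, LinearMap.add_apply, LinearMap.smul_apply, p4, h.refl p4,
      hw0, smul_eq_mul, RingHom.id_apply] at this
    exact mul_right_cancel₀ h4 (by linear_combination this)
  have h6 : ∀ v, aeval g (X - C a) v = g v - a • v := fun v => by simp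
  refine .inr ⟨a, hV ▸ elemDiv_of_block (k := 3) (by omega) (LinearMap.ext fun v => ?_) ?_⟩
  · obtain ⟨x, y, e⟩ := Submodule.mem_span_pair.1 (h3.ge ((h1 (g v - a • v)).2 (by
      have := hg w v
      rw [hw, map_smulₛₗ, LinearMap.smul_apply, smul_eq_mul] at this
      rw [map_sub, map_smul, smul_eq_mul, ← this]
      linear_combination -B w (g v) * h5)))
    rw [map_pow, pow_three, End.mul_apply, End.mul_apply, h6 v, ← e]
    rw [h6, h6]
    simp only [map_add, map_smul, map_sub, hw, ht, LinearMap.zero_apply]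
    module
  · have := (two_mul_finrank_le h (W := LinearMap.ker (aeval g (X - C a))) fun x hx =>
      hi x a (sub_eq_zero.1 ((h6 x).symm.trans hx))).2
    omega

end Unitary

end Cfsg.Agent.Class.Cover
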